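import Cfsg.Agent.H72.ThompsonA
import Cfsg.Agent.H35.ThompsonA
import Cfsg.Agent.H60.ControlNormal
import Cfsg.Agent.H61.Stability
import Cfsg.Agent.H24.PGroupBasic
import Cfsg.Prelude.Def_LocalEven

/-!
Failure of strong fusion control by the centre of the Thompson subgroup: basic tools.
-/

set_option autoImplicit false

namespace Cfsg.Agent.H74.ZJFail

open Subgroup
open scoped commutatorElement
open Cfsg.Agent.H61 (cj)
open Cfsg.Agent.H72 (IsMaxAb)

variable {G : Type*} [Group G]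

/-- Conjugation by `1` is trivial. -/
theorem cj_one_eq (A : Subgroup G) : cj (1 : G) A = A := H61.cj_eq_self (one_mem _)

section MaxAb

variable [Finite G]

/-- The largest order of an abelian subgroup of `P`. -/
noncomputable def dAb (P : Subgroup G) : ℕ := Nat.card (H72.exists_isMaxAb P).choose

/-- All abelian subgroups of largest order have order `dAb P`. -/
theorem card_eq_dAb {P A : Subgroup G} (hA : IsMaxAb P A) : Nat.card A = dAb P :=
  le_antisymm ((H72.exists_isMaxAb P).choose_spec.2.2 A hA.1 hA.2.1)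
    (hA.2.2 _ (H72.exists_isMaxAb P).choose_spec.1 (H72.exists_isMaxAb P).choose_spec.2.1)

/-- `dAb` is monotone. -/
theorem dAb_mono {P Q : Subgroup G} (h : P ≤ Q) : dAb P ≤ dAb Q := by
  obtain ⟨A, hA⟩ := H72.exists_isMaxAb P
  obtain ⟨B, hB⟩ := H72.exists_isMaxAb Q
  rw [← card_eq_dAb hA, ← card_eq_dAb hB]
  exact hB.2.2 A (hA.1.trans h) hA.2.1

/-- A largest abelian subgroup of `P` stays one in `Q ≥ P` of the same rank. -/
theorem isMaxAb_of_dAb_eq {P Q A : Subgroup G} (h : P ≤ Q) (hd : dAb Q ≤ dAb P) (hA : IsMaxAb P A) :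
    IsMaxAb Q A := by
  obtain ⟨B, hB⟩ := H72.exists_isMaxAb Q
  refine ⟨hA.1.trans h, hA.2.1, fun C hC hc => (hB.2.2 C hC hc).trans ?_⟩
  rw [card_eq_dAb hA, card_eq_dAb hB]
  exact hd

/-- A largest abelian subgroup of `Q` lying in `P ≤ Q` is one of `P`. -/
theorem isMaxAb_of_le {P Q A : Subgroup G} (h : P ≤ Q) (hAP : A ≤ P) (hA : IsMaxAb Q A) :
    IsMaxAb P A :=
  ⟨hAP, hA.2.1, fun C hC hc => hA.2.2 C (hC.trans h) hc⟩

/-- Monotonicity of the Thompson subgroup when the rank stays. -/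
theorem thompson_mono {P Q : Subgroup G} (h : P ≤ Q) (hd : dAb Q ≤ dAb P) :
    Cfsg.thompsonSubgroupAOf P ≤ Cfsg.thompsonSubgroupAOf Q := by
  rw [H72.thompsonSubgroupAOf_eq, H72.thompsonSubgroupAOf_eq]
  exact sSup_le_sSup fun A hA => isMaxAb_of_dAb_eq h hd hA

/-- An element commuting with a largest abelian subgroup lies in it. -/
theorem mem_of_commute {P A : Subgroup G} (hA : IsMaxAb P A) {x : G} (hx : x ∈ P)
    (hc : ∀ a ∈ A, a * x = x * a) : x ∈ A := by
  set B := A ⊔ zpowers x with hB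
  have hBc : B ≤ centralizer (B : Set G) := by
    refine sup_le (fun a ha => ?_) (zpowers_le.2 ?_)
    · have : B ≤ centralizer {a} := sup_le
        (fun b hb => mem_centralizer_singleton_iff.2 (hA.2.1 b hb a ha).eq)
        (zpowers_le.2 (mem_centralizer_singleton_iff.2 (hc a ha).symm))
      exact mem_centralizer_iff.2 fun b hb => mem_centralizer_singleton_iff.1 (this hb)
    · have : B ≤ centralizer {x} := sup_le (fun a ha => mem_centralizer_singleton_iff.2 (hc a ha))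
        (zpowers_le.2 (mem_centralizer_singleton_iff.2 rfl))
      exact mem_centralizer_iff.2 fun b hb => mem_centralizer_singleton_iff.1 (this hb)
  have hle := hA.2.2 B (sup_le hA.1 (zpowers_le.2 hx)) fun a ha b hb =>
    (mem_centralizer_iff.1 (hBc hb) a ha)
  have : A = B := eq_of_le_of_card_ge le_sup_left hle
  rw [this]
  exact mem_sup_right (mem_zpowers x)

/-- A subgroup of `P` centralizing a largest abelian subgroup lies in it. -/
theorem le_of_commute {P A X : Subgroup G} (hA : IsMaxAb P A) (hX : X ≤ P)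
    (hc : X ≤ centralizer (A : Set G)) : X ≤ A :=
  fun x hx => mem_of_commute hA (hX hx) fun a ha => mem_centralizer_iff.1 (hc hx) a ha

/-- `Z(J(P))` lies in every largest abelian subgroup. -/
theorem centerThompson_le_maxAb {P A : Subgroup G} (hA : IsMaxAb P A) :
    Cfsg.centerThompsonAOf P ≤ A :=
  le_of_commute hA (H35.centerThompsonAOf_le P)
    (inf_le_right.trans (centralizer_le hA.le_thompson))

/-- Conjugation carries largest abelian subgroups along. -/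
theorem isMaxAb_cj {P A : Subgroup G} (hA : IsMaxAb P A) (g : G) : IsMaxAb (cj g P) (cj g A) := by
  refine ⟨H61.cj_mono g hA.1, ?_, fun B hB hc => ?_⟩
  · rintro _ ⟨a, ha, rfl⟩ _ ⟨b, hb, rfl⟩
    exact (hA.2.1 a ha b hb).map _
  · rw [H61.card_cj, ← H61.card_cj g⁻¹ B]
    refine hA.2.2 _ ?_ ?_
    · calc cj g⁻¹ B ≤ cj g⁻¹ (cj g P) := H61.cj_mono _ hB
        _ = P := by rw [H61.cj_cj, inv_mul_cancel, cj_one_eq]
    · rintro _ ⟨a, ha, rfl⟩ _ ⟨b, hb, rfl⟩
      exact (hc a ha b hb).map _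

/-- `dAb` is invariant under conjugation. -/
theorem dAb_cj (g : G) (P : Subgroup G) : dAb (cj g P) = dAb P := by
  obtain ⟨A, hA⟩ := H72.exists_isMaxAb P
  rw [← card_eq_dAb hA, ← card_eq_dAb (isMaxAb_cj hA g), H61.card_cj]

/-- The Thompson subgroup commutes with conjugation. -/
theorem thompson_cj (g : G) (P : Subgroup G) :
    Cfsg.thompsonSubgroupAOf (cj g P) = cj g (Cfsg.thompsonSubgroupAOf P) :=
  (H72.map_thompsonSubgroupAOf _ P (MulAut.conj g).injective.injOn).symm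

end MaxAb

variable {p : ℕ}

/-- `Z(J(S))`. -/
def Zc (S : Sylow p G) : Subgroup G := Cfsg.centerThompsonAOf (S : Subgroup G)

/-- The normalizer of `Z(J(S))`. -/
def Hz (S : Sylow p G) : Subgroup G := normalizer (Zc S : Set G)

/-- The fusion of `A` by `g` is induced in `N(Z(J(S)))`. -/
def Ctl (S : Sylow p G) (A : Subgroup G) (g : G) : Prop := H60.ActsFrom (Hz S) A g

/-- The conclusion of the failure theorem, in element form. -/
def Concl [Fact p.Prime] (S : Sylow p G) : Prop :=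
  Cfsg.Involves ↥(Cfsg.fOver (ZMod p)) ↥(Hz S) ∧
    ∃ z ∈ Zc S, ∃ h ∈ Hz S, ∃ m : ℕ, orderOf z = p ∧ orderOf (m : ZMod p) = p - 1 ∧
      h * z * h⁻¹ = z ^ m

/-- Control in the proper subgroups containing `J(S)`. -/
def OverCtl (S : Sylow p G) : Prop :=
  ∀ Y T : Subgroup G, Y ≠ ⊤ → H23.IsSylowIn p T Y → Cfsg.thompsonSubgroupAOf (S : Subgroup G) ≤ T →
    ∀ A : Subgroup G, A ≤ T → ∀ g ∈ Y, cj g A ≤ T → Ctl S A g

variable {S : Sylow p G}

theorem ctl_of_mem {A : Subgroup G} {g : G} (h : g ∈ Hz S) : Ctl S A g :=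
  ⟨g, h, 1, one_mem _, (mul_one g).symm⟩

theorem ctl_of_centralizer {A : Subgroup G} {g : G} (h : g ∈ centralizer (A : Set G)) : Ctl S A g :=
  ⟨1, one_mem _, g, h, (one_mul g).symm⟩

theorem Ctl.mono {A B : Subgroup G} {g : G} (h : B ≤ A) (hg : Ctl S A g) : Ctl S B g :=
  H60.ActsFrom.mono h hg

theorem Ctl.mul {A : Subgroup G} {g k : G} (hg : Ctl S A g) (hk : Ctl S (cj g A) k) :
    Ctl S A (k * g) :=
  H60.ActsFrom.mul hg hk

theorem Ctl.inv {A : Subgroup G} {g : G} (hg : Ctl S A g) : Ctl S (cj g A) g⁻¹ := by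
  obtain ⟨h, hh, c, hc, rfl⟩ := hg
  refine ⟨h⁻¹, inv_mem hh, h * c⁻¹ * h⁻¹, ?_, by group⟩
  refine mem_centralizer_iff.2 ?_
  rintro _ ⟨a, ha, rfl⟩
  have h1 := mem_centralizer_iff.1 (inv_mem hc) a ha
  have h2 : c * a * c⁻¹ = a := by
    rw [← mem_centralizer_iff.1 hc a ha, mul_inv_cancel_right]
  simp only [MulEquiv.coe_toMonoidHom, MulAut.conj_apply]
  rw [show h * c * a * (h * c)⁻¹ = h * (c * a * c⁻¹) * h⁻¹ by group, h2]
  calc h * a * h⁻¹ * (h * c⁻¹ * h⁻¹) = h * (a * c⁻¹) * h⁻¹ := by group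
    _ = h * (c⁻¹ * a) * h⁻¹ := by rw [h1]
    _ = h * c⁻¹ * h⁻¹ * (h * a * h⁻¹) := by group

/-- A controlled map agrees with an element of `N(Z(J(S)))`. -/
theorem Ctl.exists_eq {A : Subgroup G} {g : G} (hg : Ctl S A g) :
    ∃ h ∈ Hz S, ∀ a ∈ A, g * a * g⁻¹ = h * a * h⁻¹ := by
  obtain ⟨h, hh, c, hc, rfl⟩ := hg
  refine ⟨h, hh, fun a ha => ?_⟩
  rw [show h * c * a * (h * c)⁻¹ = h * (c * a * c⁻¹) * h⁻¹ by group,
    ← mem_centralizer_iff.1 hc a ha, mul_inv_cancel_right]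

theorem zc_le : Zc S ≤ (S : Subgroup G) := inf_le_left.trans (H35.thompsonSubgroupAOf_le _)

theorem zc_comm {a b : G} (ha : a ∈ Zc S) (hb : b ∈ Zc S) : a * b = b * a :=
  mem_centralizer_iff.1 hb.2 a ha.1

theorem thompson_le_centralizer_zc :
    Cfsg.thompsonSubgroupAOf (S : Subgroup G) ≤ centralizer (Zc S : Set G) :=
  fun j hj => mem_centralizer_iff.2 fun z hz => (mem_centralizer_iff.1 hz.2 j hj).symm

/-- `Z(J(S))` centralizes itself: any commutator inside is trivial. -/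
theorem zc_commutator {a b : G} (ha : a ∈ Zc S) (hb : b ∈ Zc S) : ⁅a, b⁆ = 1 :=
  commutatorElement_eq_one_iff_mul_comm.2 (zc_comm ha hb)

theorem normalizer_thompson_le :
    normalizer (Cfsg.thompsonSubgroupAOf (S : Subgroup G) : Set G) ≤ Hz S :=
  (le_inf le_rfl H60.normalizer_le_normalizer_centralizer).trans inf_normalizer_le_normalizer_inf

section Finite

variable [Finite G]

theorem normalizer_sylow_le : normalizer ((S : Subgroup G) : Set G) ≤ Hz S :=
  H35.normalizer_le_normalizer_centerThompsonAOf _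

theorem sylow_le : (S : Subgroup G) ≤ Hz S := le_normalizer.trans normalizer_sylow_le

/-- Weak closure of `J(S)` in `S`. -/
theorem mem_of_cj_thompson_le {g : G}
    (h : cj g (Cfsg.thompsonSubgroupAOf (S : Subgroup G)) ≤ (S : Subgroup G)) : g ∈ Hz S := by
  refine normalizer_thompson_le (H61.mem_normalizer_of_cj (H61.cj_eq_of_le ?_))
  rw [cj, H72.thompsonSubgroupAOf_eq, map_le_iff_le_comap]
  refine sSup_le fun A hA => map_le_iff_le_comap.1 (le_sSup ?_)
  refine ⟨(H61.cj_mono g hA.le_thompson).trans h, ?_, fun B h1 h2 => ?_⟩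
  · rintro _ ⟨a, ha, rfl⟩ _ ⟨b, hb, rfl⟩
    exact (hA.2.1 a ha b hb).map _
  · exact (hA.2.2 B h1 h2).trans_eq (H61.card_cj g A).symm

variable [Fact p.Prime]

/-- A `p`-subgroup containing `J(S)` has the same Thompson subgroup. -/
theorem thompson_eq_of_le {T : Subgroup G} (hT : IsPGroup p T)
    (hJ : Cfsg.thompsonSubgroupAOf (S : Subgroup G) ≤ T) :
    Cfsg.thompsonSubgroupAOf T = Cfsg.thompsonSubgroupAOf (S : Subgroup G) := by
  obtain ⟨k, -, hk⟩ := H61.exists_cj_le (H61.sylowIn_of_le S le_top) le_top hT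
  have hkH : k ∈ normalizer (Cfsg.thompsonSubgroupAOf (S : Subgroup G) : Set G) := by
    refine H61.mem_normalizer_of_cj (H61.cj_eq_of_le ?_)
    rw [cj, H72.thompsonSubgroupAOf_eq, map_le_iff_le_comap]
    refine sSup_le fun A hA => map_le_iff_le_comap.1 (le_sSup ?_)
    refine ⟨(H61.cj_mono k (hA.le_thompson.trans hJ)).trans hk, ?_, fun B h1 h2 => ?_⟩
    · rintro _ ⟨a, ha, rfl⟩ _ ⟨b, hb, rfl⟩
      exact (hA.2.1 a ha b hb).map _
    · exact (hA.2.2 B h1 h2).trans_eq (H61.card_cj k A).symm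
  obtain ⟨A₀, hA₀⟩ := H72.exists_isMaxAb (S : Subgroup G)
  apply le_antisymm
  · rw [H72.thompsonSubgroupAOf_eq T]
    refine sSup_le fun A hA => ?_
    have hcA : ∀ a ∈ cj k A, ∀ b ∈ cj k A, Commute a b := by
      rintro _ ⟨a, ha, rfl⟩ _ ⟨b, hb, rfl⟩
      exact (hA.2.1 a ha b hb).map _
    have h1 : IsMaxAb (S : Subgroup G) (cj k A) := by
      refine ⟨(H61.cj_mono k hA.1).trans hk, hcA, fun B h1 h2 => (hA₀.2.2 B h1 h2).trans ?_⟩
      rw [H61.card_cj]
      exact hA.2.2 A₀ (hA₀.le_thompson.trans hJ) hA₀.2.1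
    have h2 := h1.le_thompson
    rw [← H61.cj_eq_self hkH, H61.cj_le_cj_iff] at h2
    exact h2
  · rw [H72.thompsonSubgroupAOf_eq (S : Subgroup G)]
    refine sSup_le fun A hA => IsMaxAb.le_thompson ⟨hA.le_thompson.trans hJ, hA.2.1, fun B h1 h2 => ?_⟩
    rw [← H61.card_cj k B]
    refine hA.2.2 _ ((H61.cj_mono k h1).trans hk) ?_
    rintro _ ⟨a, ha, rfl⟩ _ ⟨b, hb, rfl⟩
    exact (h2 a ha b hb).map _

end Finite

/-- The largest normal subgroup of `G` inside `Z(J(S))`. -/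
abbrev Nz (S : Sylow p G) : Subgroup G := (Zc S).normalCore

theorem nz_le : Nz S ≤ Zc S := normalCore_le _

/-- Elements of `Z(J(S))` central and of order `p` modulo `Nz`. -/
def Ez (S : Sylow p G) : Subgroup G where
  carrier := {z | z ∈ Zc S ∧ z ^ p ∈ Nz S ∧ ∀ s ∈ (S : Subgroup G), ⁅s, z⁆ ∈ Nz S}
  one_mem' := ⟨one_mem _, by rw [one_pow]; exact one_mem _, fun s _ => by
    rw [commutatorElement_one_right]; exact one_mem _⟩
  mul_mem' := fun {a b} ha hb => ⟨mul_mem ha.1 hb.1, by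
    rw [Commute.mul_pow (zc_comm ha.1 hb.1)]; exact mul_mem ha.2.1 hb.2.1, fun s hs => by
    rw [show ⁅s, a * b⁆ = ⁅s, a⁆ * (a * ⁅s, b⁆ * a⁻¹) by simp only [commutatorElement_def]; group]
    exact mul_mem (ha.2.2 s hs) ((normalCore_normal _).conj_mem _ (hb.2.2 s hs) a)⟩
  inv_mem' := fun {a} ha => ⟨inv_mem ha.1, by rw [inv_pow]; exact inv_mem ha.2.1, fun s hs => by
    rw [show ⁅s, a⁻¹⁆ = a⁻¹ * ⁅s, a⁆⁻¹ * a⁻¹⁻¹ by simp only [commutatorElement_def]; group]
    exact (normalCore_normal _).conj_mem _ (inv_mem (ha.2.2 s hs)) _⟩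

theorem ez_le : Ez S ≤ Zc S := fun _ h => h.1

variable [Finite G] [Fact p.Prime]

/-- `Ez` is strictly larger than `Nz` unless `Z(J(S))` is normal. -/
theorem exists_mem_ez (h : ¬ Zc S ≤ Nz S) : ∃ z ∈ Ez S, z ∉ Nz S := by
  set π := QuotientGroup.mk' (Nz S) with hπ
  set Sb := (S : Subgroup G).map π with hSb
  have hSbp : IsPGroup p Sb := S.2.map π
  set Zb := ((Zc S).map π).subgroupOf Sb with hZb
  haveI : Zb.Normal := by
    refine normal_subgroupOf_iff_le_normalizer (map_mono zc_le) |>.2 ?_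
    exact (map_mono sylow_le).trans (le_normalizer_map π)
  have hne : Zb ≠ ⊥ := by
    intro e
    apply h
    intro z hz
    have : (⟨π z, mem_map_of_mem π (zc_le hz)⟩ : Sb) ∈ Zb := mem_map_of_mem π hz
    rw [e, mem_bot] at this
    exact (QuotientGroup.eq_one_iff z).1 (congrArg Subtype.val this)
  have hI := H24.inf_center_ne_bot hSbp hne
  have hIp : IsPGroup p (Zb ⊓ center Sb : Subgroup Sb) := hSbp.to_subgroup _
  haveI : Nontrivial (Zb ⊓ center Sb : Subgroup Sb) := (nontrivial_iff_ne_bot _).2 hI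
  obtain ⟨k, hk0, hk⟩ := hIp.nontrivial_iff_card.1 inferInstance
  obtain ⟨⟨⟨y, hy⟩, hyI⟩, hyo⟩ := exists_prime_orderOf_dvd_card' (G := (Zb ⊓ center Sb : Subgroup Sb)) p
    (by rw [hk]; exact dvd_pow_self p (by omega))
  obtain ⟨z, hz, rfl⟩ : y ∈ (Zc S).map π := hyI.1
  have hyp : (π z) ^ p = 1 := by
    have := orderOf_dvd_iff_pow_eq_one.1 hyo.dvd
    exact congrArg (fun w : (Zb ⊓ center Sb : Subgroup Sb) => ((w : Sb) : G ⧸ Nz S)) this
  refine ⟨z, ⟨hz, (QuotientGroup.eq_one_iff _).1 (by rw [← hyp]; rfl), fun s hs => ?_⟩, fun hzN => ?_⟩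
  · refine (QuotientGroup.eq_one_iff _).1 ?_
    show π ⁅s, z⁆ = 1
    rw [map_commutatorElement, commutatorElement_eq_one_iff_mul_comm]
    exact congrArg Subtype.val (mem_center_iff.1 hyI.2 ⟨π s, mem_map_of_mem π hs⟩)
  · have h1 : π z = 1 := (QuotientGroup.eq_one_iff z).2 hzN
    have h2 : orderOf (⟨⟨π z, hy⟩, hyI⟩ : (Zb ⊓ center Sb : Subgroup Sb)) = 1 :=
      orderOf_eq_one_iff.2 (Subtype.ext (Subtype.ext h1))
    exact (Fact.out : p.Prime).ne_one (hyo.symm.trans h2)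

/-- An element carrying a nontrivial element of `Ez` into `Z(J(S))` is controlled. -/
theorem ctl_of_conj_mem (hO : OverCtl S) {z : G} (hz : z ∈ Ez S) (hzN : z ∉ Nz S) {A : Subgroup G}
    (hA : A ≤ (S : Subgroup G)) {x : G} (hxA : cj x A ≤ (S : Subgroup G))
    (hxz : x * z * x⁻¹ ∈ Zc S) : Ctl S A x := by
  set J := Cfsg.thompsonSubgroupAOf (S : Subgroup G) with hJ
  set π := QuotientGroup.mk' (Nz S) with hπ
  set C₁ := (centralizer {π z} : Subgroup (G ⧸ Nz S)).comap π with hC₁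
  have hC₁mem : ∀ g, g ∈ C₁ ↔ ⁅g, z⁆ ∈ Nz S := fun g => by
    rw [hC₁, mem_comap, mem_centralizer_singleton_iff, ← QuotientGroup.eq_one_iff,
      ← commutatorElement_eq_one_iff_mul_comm]
    rw [← QuotientGroup.mk'_apply (Nz S) ⁅g, z⁆, map_commutatorElement]
  have hC₁ne : C₁ ≠ ⊤ := fun e => hzN fun g => by
    have h1 := nz_le ((hC₁mem g).1 (e ▸ mem_top g))
    have h2 := mul_mem h1 hz.1
    rwa [commutatorElement_def, inv_mul_cancel_right] at h2
  have hSC : (S : Subgroup G) ≤ C₁ := fun s hs => (hC₁mem s).2 (hz.2.2 s hs)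
  set C₂ := cj x C₁ with hC₂
  have hC₂ne : C₂ ≠ ⊤ := fun e => hC₁ne (eq_top_of_card_eq _ (by
    rw [← H61.card_cj x C₁, ← hC₂, e, card_top]))
  have hJC : J ≤ C₂ := fun j hj => by
    rw [hC₂, H61.mem_cj, hC₁mem]
    have h1 : j * (x * z * x⁻¹) = x * z * x⁻¹ * j :=
      (mem_centralizer_iff.1 (thompson_le_centralizer_zc hj) _ hxz).symm
    have : ⁅x⁻¹ * j * x, z⁆ = x⁻¹ * ⁅j, x * z * x⁻¹⁆ * x := by
      simp only [commutatorElement_def]; group
    rw [this, commutatorElement_eq_one_iff_mul_comm.2 h1, mul_one, inv_mul_cancel]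
    exact one_mem _
  have hxAC : cj x A ≤ C₂ := H61.cj_mono x (hA.trans hSC)
  have hsy : H23.IsSylowIn p (cj x (S : Subgroup G)) C₂ :=
    H61.sylowIn_cj (H61.sylowIn_of_le S hSC) x
  obtain ⟨c, hc, hcle⟩ := H61.exists_cj_le hsy (inf_le_right : (S : Subgroup G) ⊓ C₂ ≤ C₂)
    (S.2.to_le inf_le_left)
  have hJle : J ≤ (S : Subgroup G) := H35.thompsonSubgroupAOf_le _
  have hg0 : x⁻¹ * c ∈ Hz S := by
    refine mem_of_cj_thompson_le ?_
    have e := H61.cj_mono x⁻¹ ((H61.cj_mono c (le_inf hJle hJC)).trans hcle)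
    rwa [H61.cj_cj, H61.cj_cj, inv_mul_cancel, cj_one_eq] at e
  set T₂ := cj c⁻¹ (cj x (S : Subgroup G)) with hT₂
  have hT₂s : H23.IsSylowIn p T₂ C₂ := by
    have := H61.sylowIn_cj hsy c⁻¹
    rwa [H61.cj_eq_self (le_normalizer (inv_mem hc))] at this
  have hST : (S : Subgroup G) ⊓ C₂ ≤ T₂ := by
    rw [hT₂, ← H61.cj_le_cj_iff c, H61.cj_cj, H61.cj_cj]
    simpa using hcle
  set A₂ := cj (c⁻¹ * x) A with hA₂
  have h1 : Ctl S A₂ c := by
    refine hO C₂ T₂ hC₂ne hT₂s ((le_inf hJle hJC).trans hST) A₂ ?_ c hc ?_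
    · rw [hA₂, hT₂, H61.cj_cj]
      exact H61.cj_mono _ hA
    · rw [hA₂, H61.cj_cj, mul_inv_cancel_left]
      exact (le_inf hxA hxAC).trans hST
  have h2 : Ctl S A (c⁻¹ * x) := ctl_of_mem (by
    have := inv_mem hg0
    rwa [mul_inv_rev, inv_inv] at this)
  have := h2.mul h1
  rwa [mul_inv_cancel_left] at this

/-- Proper overgroups of `S` are controlled. -/
theorem ctl_of_overgroup (hO : OverCtl S) {Y : Subgroup G} (hY : Y ≠ ⊤)
    (hSY : (S : Subgroup G) ≤ Y) {A : Subgroup G} (hA : A ≤ (S : Subgroup G)) {g : G} (hg : g ∈ Y)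
    (hgA : cj g A ≤ (S : Subgroup G)) : Ctl S A g :=
  hO Y S hY (H61.sylowIn_of_le S hSY) (H35.thompsonSubgroupAOf_le _) A hA g hg hgA

end Cfsg.Agent.H74.ZJFail
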