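import Cfsg.Agent.H74.ZJFail.Quadratic

/-!
The two quadratic elements acting on a section meeting `Z(J(S))`.
-/

set_option autoImplicit false

namespace Cfsg.Agent.H74.ZJFail

open Subgroup
open scoped commutatorElement
open Cfsg.Agent.H61 (cj)

variable {G : Type*} [Group G] {p : ℕ}

/-- A group generated modulo `Nz` by two quadratic elements on a section `B`, moving an element of
`Ez`, with a Sylow subgroup in `S` whose normalizer in it is controlled. -/
structure Config (S : Sylow p G) (B L R : Subgroup G) (a d : G) : Prop where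
  nz : Nz S ≤ B
  le : B ≤ R
  le_sylow : R ≤ (S : Subgroup G)
  syl : H23.IsSylowIn p R L
  norm : L ≤ normalizer (B : Set G)
  comm : ∀ x ∈ B, ∀ y ∈ B, ⁅x, y⁆ ∈ Nz S
  pow : ∀ x ∈ B, x ^ p ∈ Nz S
  amem : a ∈ R
  dmem : d ∈ L
  quadA : ∀ v ∈ B, ⁅a, ⁅a, v⁆⁆ ∈ Nz S
  quadD : ∀ v ∈ B, ⁅d, ⁅d, v⁆⁆ ∈ Nz S
  gen : ∀ l ∈ L, ∃ l' ∈ closure ({a, d} : Set G), ∀ v ∈ B, ⁅l'⁻¹ * l, v⁆ ∈ Nz S
  move : ∃ e ∈ Ez S, e ∈ B ∧ ∃ l ∈ L, ⁅l, e⁆ ∉ Nz S
  ctl : ∀ t ∈ L, t ∈ normalizer (R : Set G) → Ctl S R t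

variable {S : Sylow p G}

/-- Quadratic action is transported by the normalizer. -/
theorem quad_conj {B : Subgroup G} {a y : G} (hy : y ∈ normalizer (B : Set G))
    (ha : ∀ v ∈ B, ⁅a, ⁅a, v⁆⁆ ∈ Nz S) :
    ∀ v ∈ B, ⁅y * a * y⁻¹, ⁅y * a * y⁻¹, v⁆⁆ ∈ Nz S := by
  intro v hv
  have h1 := (normalCore_normal (Zc S)).conj_mem _
    (ha _ ((mem_normalizer_iff''.1 hy v).1 hv)) y
  rw [show y * ⁅a, ⁅a, y⁻¹ * v * y⁆⁆ * y⁻¹ = ⁅y * a * y⁻¹, ⁅y * a * y⁻¹, v⁆⁆ by
    simp only [commutatorElement_def]; group] at h1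
  exact h1

variable [Finite G] [Fact p.Prime]

/-- The configuration exists. -/
theorem Good.exists_config {U : Subgroup G} (hg : Good S U) (hp : p ≠ 2) (hO : OverCtl S) {e : G}
    (he : e ∈ Ez S) (heN : e ∉ Nz S) : ∃ B L R : Subgroup G, ∃ a d : G, Config S B L R a d := by
  set π := QuotientGroup.mk' (Nz S) with hπ
  obtain ⟨n, hnN, hnot⟩ := hg.fails
  obtain ⟨a, haSg, haS, haQ, haU⟩ := hg.exists_quadratic hp hO he heN
  set J := Jb S U with hJ
  set T' : Subgroup G :=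
    (S : Subgroup G) ⊓ normalizer (Jh S J : Set G) ⊓ normalizer (Qone S U : Set G) with hT'
  have hT'S : T' ≤ (S : Subgroup G) := inf_le_left.trans inf_le_left
  have haT : a ∈ T' := ⟨⟨haS, haSg.1⟩, haQ⟩
  have hUT : U ≤ T' := le_inf (le_inf hg.le (le_normalizer.trans (normalizer_le_normalizer_jh U)))
    (le_normalizer.trans (normalizer_le_normalizer_qone U))
  set N := normalizer (U : Set G) with hN
  set Y : Subgroup G := N ⊔ T' with hY
  have hNY : N ≤ Y := le_sup_left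
  have hTY : T' ≤ Y := le_sup_right
  have hY2 : Y ≤ normalizer (Jh S J : Set G) ⊓ normalizer (Qone S U : Set G) :=
    sup_le (le_inf (normalizer_le_normalizer_jh U) (normalizer_le_normalizer_qone U))
      (inf_le_inf_right _ inf_le_right)
  have hTsyl : H23.IsSylowIn p T' Y := H61.sylowIn_mono hg.sylQ hTY hY2
  have hfix : ∀ g ∈ normalizer (Jh S J : Set G), cj (π g) J = J := fun g h => by
    rw [← map_jh (S := S) J, ← map_cj_mk]
    congr 1
    exact H61.cj_eq_self h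
  -- the section
  set B₀ : Subgroup G := closure {x | ∃ y ∈ Y, y * e * y⁻¹ = x} with hB₀
  set B : Subgroup G := Nz S ⊔ B₀ with hB
  have heB : e ∈ B := mem_sup_right (subset_closure ⟨1, one_mem _, by simp⟩)
  have hgenB : ∀ M : Subgroup G, Nz S ≤ M → (∀ y ∈ Y, y * e * y⁻¹ ∈ M) → B ≤ M := fun M h1 h2 =>
    sup_le h1 ((closure_le _).2 (by rintro _ ⟨y, hy, rfl⟩; exact h2 y hy))
  have hYB : Y ≤ normalizer (B : Set G) := by
    intro y hy
    refine H61.mem_normalizer_of_cj (H61.cj_eq_of_le ?_)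
    rw [hB, H61.cj_sup, H61.cj_normal y (Nz S), hB₀, ← closure_image_cj]
    refine sup_le le_sup_left (le_trans ((closure_le _).2 ?_) le_sup_right)
    rintro _ ⟨_, ⟨y', hy', rfl⟩, rfl⟩
    exact subset_closure ⟨y * y', mul_mem hy hy', by group⟩
  have hconjB : ∀ y ∈ Y, ∀ v ∈ B, y * v * y⁻¹ ∈ B := fun y hy v hv =>
    (mem_normalizer_iff.1 (hYB hy) v).1 hv
  have hBz : B.map π ≤ (Bz S J).map π := by
    rw [map_le_iff_le_comap]
    refine hgenB _ (fun x hx => ?_) fun y hy => mem_map_of_mem π ?_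
    · show π x ∈ (Bz S J).map π
      rw [mk_eq_one_iff.2 hx]
      exact one_mem _
    · have h := H61.conj_mem_cj (g := y) (hg.mem_bz he)
      rwa [← bz_cj, hfix y (hY2 hy).1] at h
  have hBJ : B ≤ Jh S J := hgenB _ (nz_le_jh J) fun y hy =>
    (mem_normalizer_iff.1 (hY2 hy).1 e).1 (vz_le_jh J (hg.ez_le_vz he))
  have hBU : B ≤ U := hBJ.trans (jh_le hg.nz)
  have hBS : B ≤ (S : Subgroup G) := hBU.trans hg.le
  have hBcomm : ∀ x ∈ B, ∀ y ∈ B, ⁅x, y⁆ ∈ Nz S := by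
    intro x hx y hy
    obtain ⟨x', hx', ex⟩ := hBz (mem_map_of_mem π hx)
    obtain ⟨y', hy', ey⟩ := hBz (mem_map_of_mem π hy)
    refine comm_mem_iff.2 ?_
    rw [← hπ, ← ex, ← ey]
    exact (mem_centralizer_iff.1 (bz_le_vz J hy').2 _ (bz_le_vz J hx').1)
  have hBpow : ∀ x ∈ B, x ^ p ∈ Nz S := by
    let M : Subgroup G :=
      { carrier := {x | x ∈ B ∧ x ^ p ∈ Nz S}
        one_mem' := ⟨one_mem _, by rw [one_pow]; exact one_mem _⟩
        mul_mem' := fun {x y} hx hy => ⟨mul_mem hx.1 hy.1, by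
          rw [← mk_eq_one_iff, map_pow, map_mul,
            Commute.mul_pow (comm_mem_iff.1 (hBcomm x hx.1 y hy.1)), ← map_pow, ← map_pow,
            mk_eq_one_iff.2 hx.2, mk_eq_one_iff.2 hy.2, one_mul]⟩
        inv_mem' := fun {x} hx => ⟨inv_mem hx.1, by rw [inv_pow]; exact inv_mem hx.2⟩ }
    intro x hx
    refine (hgenB M (fun z hz => ⟨mem_sup_left hz, pow_mem hz p⟩) (fun y hy => ⟨hconjB y hy e heB, ?_⟩)
      hx).2
    rw [conj_pow]
    exact (normalCore_normal (Zc S)).conj_mem _ he.2.1 y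
  have hquad : ∀ v ∈ B, ⁅a, ⁅a, v⁆⁆ ∈ Nz S := by
    intro v hv
    obtain ⟨v', hv', ev⟩ := hBz (mem_map_of_mem π hv)
    have := mk_eq_one_iff.2 (haSg.2 v' hv')
    rw [map_commutatorElement, map_commutatorElement] at this
    rw [← mk_eq_one_iff, map_commutatorElement, map_commutatorElement, ← hπ, ← ev]
    exact this
  -- the kernel
  set K : Subgroup G := Kc S B ⊓ Y with hK
  have hYK : Y ≤ normalizer (K : Set G) := fun y hy => by
    refine H61.mem_normalizer_of_cj ?_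
    rw [hK, H61.cj_inf, ← kc_cj, H61.cj_eq_self (hYB hy), H61.cj_eq_self (le_normalizer hy)]
  set P₀ : Subgroup G := K ⊓ T' with hP₀
  have hQB : Qone S U ≤ Kc S B := by
    intro q hq
    refine mem_kc.2 fun v hv => ?_
    rw [← commutatorElement_inv]
    refine inv_mem (mem_kc.1 (hgenB (Kc S (Qone S U)) ?_ ?_ hv) q hq)
    · exact fun z hz => mem_kc.2 fun w _ =>
        mul_mem hz ((normalCore_normal (Zc S)).conj_mem _ (inv_mem hz) w) |>
          fun h => by simpa [commutatorElement_def, mul_assoc] using h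
    · intro y hy
      have h1 : e ∈ Kc S (Qone S U) := mem_kc.2 fun w hw => by
        rw [← commutatorElement_inv]
        exact inv_mem (he.2.2 w (hg.le (qone_le hg.nz hw)))
      have h2 := H61.conj_mem_cj (g := y) h1
      rwa [← kc_cj, H61.cj_eq_self (hY2 hy).2] at h2
  have hQP : Qone S U ≤ P₀ :=
    le_inf (le_inf hQB ((qone_le hg.nz).trans (le_normalizer.trans hNY))) ((qone_le hg.nz).trans hUT)
  have hBK : B ≤ K := le_inf (fun x hx => mem_kc.2 (hBcomm x hx)) (hBU.trans (le_normalizer.trans hNY))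
  have hBP : B ≤ P₀ := le_inf hBK (hBU.trans hUT)
  have hP₀U : P₀ ≤ U := by
    refine le_of_inf_normalizer_le hg.le (inf_le_right.trans hT'S) ?_ ?_
    · exact (le_inf (le_normalizer.trans (hNY.trans hYK)) (hUT.trans le_normalizer)).trans
        inf_normalizer_le_normalizer_inf
    · have h1 := hg.inf_le hO he heN (K := K ⊓ N) inf_le_right
        ((le_inf (hNY.trans hYK) le_normalizer).trans inf_normalizer_le_normalizer_inf)
        (fun m hm k hk => mem_kc.1 hk.1.1 _ (hconjB m (hNY hm) e heB))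
      exact fun y hy => h1 ⟨⟨hT'S hy.1.2, hy.2⟩, hy.1.1, hy.2⟩
  have haP : a ∉ P₀ := fun h => haU (hP₀U h)
  -- subgroups above `P₀` with a new quadratic element are controlled
  have hctl : ∀ D : Subgroup G, D ≤ T' → P₀ ≤ D → ∀ a' ∈ D, a' ∈ Sg S J → a' ∉ P₀ → ∀ g : G,
      cj g D ≤ (S : Subgroup G) → Ctl S D g := by
    intro D hD hP₀D a' ha' haS' haP' g hgD
    refine ctl_of_mu1 hg.max (hD.trans hT'S) ?_ hgD
    have hJD : J ≤ D.map π := by
      rw [← map_jh (S := S) J]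
      exact map_mono ((le_sup_left : Jh S J ≤ Qone S U).trans (hQP.trans hP₀D))
    obtain ⟨A, hA⟩ := H72.exists_isMaxAb (U.map π)
    obtain ⟨A', hA'⟩ := H72.exists_isMaxAb (D.map π)
    rcases (show dAb (U.map π) ≤ dAb (D.map π) by
      rw [← card_eq_dAb hA, ← card_eq_dAb hA']
      exact hA'.2.2 A (hA.le_thompson.trans hJD) hA.2.1).lt_or_eq with h1 | h1
    · exact Prod.Lex.toLex_lt_toLex.2 (Or.inl h1)
    refine Prod.Lex.toLex_lt_toLex.2 (Or.inr ⟨h1, ?_⟩)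
    have hJJ : J ≤ Jb S D := by
      rw [hJ, Jb, Jb, H72.thompsonSubgroupAOf_eq (U.map π)]
      refine sSup_le fun C hC => H72.IsMaxAb.le_thompson ⟨hC.le_thompson.trans hJD, hC.2.1,
        fun E hE hEc => ?_⟩
      exact (hA'.2.2 E hE hEc).trans (by rw [card_eq_dAb hA', ← h1, card_eq_dAb hC])
    rcases (card_le_of_le hJJ).lt_or_eq with h2 | h2
    · exact Prod.Lex.toLex_lt_toLex.2 (Or.inl h2)
    refine Prod.Lex.toLex_lt_toLex.2 (Or.inr ⟨h2, Prod.Lex.toLex_lt_toLex.2 (Or.inl ?_)⟩)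
    rw [← eq_of_le_of_card_ge hJJ h2.ge]
    refine Set.ncard_lt_ncard ⟨fun z hz => ⟨hz.1, hP₀D (hQP (mem_sup_right (subset_closure hz)))⟩,
      fun h => haP' (hQP (mem_sup_right (subset_closure (h ⟨haS', ha'⟩))))⟩ (Set.toFinite _)
  -- the stabilizer of `Z(J(S)) ⊓ B`
  set MY : Subgroup G := Y ⊓ normalizer ((Zc S ⊓ B : Subgroup G) : Set G) with hMY
  have hmemMY : ∀ y ∈ Y, ∀ D : Subgroup G, B ≤ D → Ctl S D y → y ∈ MY := by
    intro y hy D hBD hc
    refine ⟨hy, H61.mem_normalizer_of_cj (H61.cj_eq_of_le ?_)⟩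
    rintro _ ⟨z, hz, rfl⟩
    exact ⟨hc.conj_mem_zc (hBD hz.2) hz.1, hconjB y hy z hz.2⟩
  have hmove : ∀ y ∈ Y, y * e * y⁻¹ ∈ Zc S → y ∈ MY := fun y hy h =>
    hmemMY y hy B le_rfl
      (ctl_of_conj_mem hO he heN hBS ((H61.cj_eq_self (hYB hy)).le.trans hBS) h)
  have hKM : K ≤ MY := fun k hk =>
    hmove k hk.2 (conj_mem_zc_of_comm he.1 (mem_kc.1 hk.1 e heB))
  have hTM : T' ≤ MY := fun y hy => hmemMY y (hTY hy) B le_rfl (ctl_of_mem (sylow_le (hT'S hy)))
  have hnM : n ∉ MY := fun h => hnot (ctl_of_conj_mem hO he heN hg.le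
    ((H61.cj_eq_self hnN).le.trans hg.le) ((mem_normalizer_iff.1 h.2 e).1 ⟨he.1, heB⟩).1)
  have hsgY : ∀ y ∈ Y, y * a * y⁻¹ ∈ Sg S J := fun y hy => by
    have := (sg_cj_mem (S := S) y J (y * a * y⁻¹)).2 (by simpa [mul_assoc] using haSg)
    rwa [hfix y (hY2 hy).1] at this
  have hnotP : ∀ y ∈ Y, y * a * y⁻¹ ∉ P₀ := fun y hy h => by
    refine haP ⟨?_, haT⟩
    exact (mem_normalizer_iff.1 (hYK hy) a).2 h.1
  -- a conjugate of `a` outside the stabilizer
  obtain ⟨y₀, hy₀, hd⟩ : ∃ y ∈ Y, y * a * y⁻¹ ∉ MY := by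
    by_contra h
    push Not at h
    set L₀ : Subgroup G := K ⊔ closure {x | ∃ y ∈ Y, y * a * y⁻¹ = x} with hL₀
    have hL₀M : L₀ ≤ MY := sup_le hKM ((closure_le _).2 (by rintro _ ⟨y, hy, rfl⟩; exact h y hy))
    have hYL : Y ≤ normalizer (L₀ : Set G) := by
      intro y hy
      refine H61.mem_normalizer_of_cj (H61.cj_eq_of_le ?_)
      rw [hL₀, H61.cj_sup, H61.cj_eq_self (hYK hy), ← closure_image_cj]
      refine sup_le le_sup_left (le_trans ((closure_le _).2 ?_) le_sup_right)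
      rintro _ ⟨_, ⟨y', hy', rfl⟩, rfl⟩
      exact subset_closure ⟨y * y', mul_mem hy hy', by group⟩
    have hL₀Y : L₀ ≤ Y := hL₀M.trans inf_le_left
    have hR := H60.sylowIn_inf hTsyl hL₀Y hYL
    have hnY : n ∈ Y := hNY hnN
    have hR' := H61.sylowIn_cj hR n
    rw [H61.cj_eq_self (hYL hnY)] at hR'
    obtain ⟨l, hl, el⟩ := H61.exists_cj_eq hR' hR
    rw [H61.cj_cj] at el
    have hc : Ctl S (T' ⊓ L₀) (l * n) := by
      refine hctl _ inf_le_left (le_inf inf_le_right (inf_le_left.trans le_sup_left)) a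
        ⟨haT, (le_sup_right : _ ≤ L₀) (Subgroup.subset_closure (show a ∈ {x | ∃ y ∈ Y, y * a * y⁻¹ = x} from ⟨1, one_mem _, by simp⟩))⟩ haSg haP _ ?_
      rw [el]
      exact inf_le_left.trans hT'S
    have h1 := hmemMY (l * n) (mul_mem (hL₀Y hl) hnY) _
      (le_inf (hBU.trans hUT) (hBK.trans le_sup_left)) hc
    exact hnM (by simpa using mul_mem (inv_mem (hL₀M hl)) h1)
  set d := y₀ * a * y₀⁻¹ with hd_def
  have hdY : d ∈ Y := mul_mem (mul_mem hy₀ (hTY haT)) (inv_mem hy₀)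
  -- `p`-subgroups containing `P₀` and `a` stabilize
  have hpM : ∀ W₀ : Subgroup G, W₀ ≤ Y → IsPGroup p W₀ → P₀ ≤ W₀ → a ∈ W₀ → W₀ ≤ MY := by
    intro W₀ hWY hWp hPW haW
    refine inf_eq_left.1 (eq_of_inf_normalizer_le hWp inf_le_left (W := W₀ ⊓ MY) fun y hy => ⟨hy.1, ?_⟩)
    set W := W₀ ⊓ MY with hW
    obtain ⟨c, hc, hcW⟩ := H61.exists_cj_le (H61.sylowIn_mono hTsyl hTM inf_le_left) (L := W)
      inf_le_right (hWp.to_le inf_le_left)
    have hcY : c ∈ Y := hc.1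
    have hP₀W : cj c P₀ ≤ cj c W := H61.cj_mono c (le_inf hPW (inf_le_left.trans hKM))
    have hcP : cj c P₀ = P₀ := H61.cj_eq_of_le (le_inf
      ((H61.cj_mono c inf_le_left).trans (H61.cj_eq_self (hYK hcY)).le) (hP₀W.trans hcW))
    have hyY : y ∈ Y := hWY hy.1
    have hc' : Ctl S (cj c W) (c * y * c⁻¹) := by
      refine hctl _ hcW (hcP.ge.trans hP₀W) (c * a * c⁻¹) (H61.conj_mem_cj ⟨haW, hTM haT⟩)
        (hsgY c hcY) (hnotP c hcY) _ ?_
      rw [H61.cj_cj, inv_mul_cancel_right, ← H61.cj_cj y c, H61.cj_eq_self hy.2]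
      exact hcW.trans hT'S
    have h1 := hmemMY _ (mul_mem (mul_mem hcY hyY) (inv_mem hcY)) _
      (hBP.trans (hcP.ge.trans hP₀W)) hc'
    have h2 := mul_mem (mul_mem (inv_mem hc) h1) hc
    simpa [mul_assoc] using h2
  -- the generated group and its Sylow subgroup
  set L : Subgroup G := closure {a, d} ⊔ K with hL
  have hcl : closure {a, d} ≤ Y := (closure_le _).2 (by
    rintro x (rfl | rfl)
    exacts [hTY haT, hdY])
  have hLY : L ≤ Y := sup_le hcl inf_le_right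
  obtain ⟨R, hR, hR0⟩ := H23.exists_isSylowIn_ge (p := p) (H := L) (L := zpowers a ⊔ P₀)
    (sup_le (zpowers_le.2 (mem_sup_left (subset_closure (Or.inl rfl)))) (inf_le_left.trans le_sup_right))
    ((S.2.to_le (sup_le (zpowers_le.2 haS) (inf_le_right.trans hT'S))))
  have haR : a ∈ R := hR0 (mem_sup_left (mem_zpowers a))
  have hP₀R : P₀ ≤ R := le_sup_right.trans hR0
  have hRM : R ≤ MY := hpM R (hR.1.trans hLY) hR.2.1 hP₀R haR
  obtain ⟨m, hm, hmR⟩ := H61.exists_cj_le (H61.sylowIn_mono hTsyl hTM inf_le_left) hRM hR.2.1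
  have hmY : m ∈ Y := hm.1
  have hmP : cj m P₀ = P₀ := H61.cj_eq_of_le (le_inf
    ((H61.cj_mono m inf_le_left).trans (H61.cj_eq_self (hYK hmY)).le)
    ((H61.cj_mono m hP₀R).trans hmR))
  have hmd : m * d * m⁻¹ ∉ MY := fun h => hd (by
    simpa [mul_assoc] using mul_mem (mul_mem (inv_mem hm) h) hm)
  refine ⟨B, cj m L, cj m R, m * a * m⁻¹, m * d * m⁻¹,
    { nz := le_sup_left
      le := hBP.trans (hmP.ge.trans (H61.cj_mono m hP₀R))
      le_sylow := hmR.trans hT'S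
      syl := H61.sylowIn_cj hR m
      norm := ?_
      comm := hBcomm
      pow := hBpow
      amem := H61.conj_mem_cj haR
      dmem := H61.conj_mem_cj (mem_sup_left (subset_closure (Or.inr rfl)))
      quadA := quad_conj (hYB hmY) hquad
      quadD := quad_conj (hYB hmY) (quad_conj (hYB hy₀) hquad)
      gen := ?_
      move := ⟨e, he, heB, m * d * m⁻¹,
        H61.conj_mem_cj (mem_sup_left (subset_closure (Or.inr rfl))), fun h =>
          hmd (hmove _ (mul_mem (mul_mem hmY hdY) (inv_mem hmY)) (conj_mem_zc_of_comm he.1 h))⟩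
      ctl := ?_ }⟩
  · exact ((H61.cj_mono m hLY).trans (H61.cj_eq_self (le_normalizer hmY)).le).trans hYB
  · rintro _ ⟨l, hl, rfl⟩
    have h1 : l ∈ ((closure {a, d} ⊔ K : Subgroup G) : Set G) := hl
    rw [coe_mul_of_left_le_normalizer_right _ _ (hcl.trans hYK)] at h1
    obtain ⟨l', hl', k, hk, rfl⟩ := h1
    refine ⟨m * l' * m⁻¹, ?_, fun v hv => ?_⟩
    · have h2 : m * l' * m⁻¹ ∈ (closure {a, d}).map (MulAut.conj m).toMonoidHom := ⟨l', hl', rfl⟩
      rw [MonoidHom.map_closure, Set.image_pair] at h2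
      exact h2
    · have hk' : m * k * m⁻¹ ∈ K := (mem_normalizer_iff.1 (hYK hmY) k).1 hk
      simpa [mul_assoc] using mem_kc.1 hk'.1 v hv
  · intro t _ htR
    refine hctl _ hmR (hmP.ge.trans (H61.cj_mono m hP₀R)) _ (H61.conj_mem_cj haR) (hsgY m hmY)
      (hnotP m hmY) t ?_
    rw [H61.cj_eq_self htR]
    exact hmR.trans hT'S

end Cfsg.Agent.H74.ZJFail
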