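import Cfsg.Agent.H35.QuadraticPair
import Cfsg.Agent.H61.Basic

/-!
Weights of two quadratic elements: a vector fixed by a Sylow subgroup `R` but not by the group, inside
an `N(R)`-invariant subgroup `T`, gives an element of `N(R)` with an eigenvalue generating the units
of `ZMod p` on `T`, together with a plane section with the opposite weights.
-/

set_option autoImplicit false

namespace Cfsg.Agent.H74.ZJFail

open Matrix
open Cfsg.Agent.H61 (cj)
open Cfsg.Agent.H35 (upperUni lowerUni det2)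

variable {H : Type*} [Group H]

/-- A weight pair for `R`, `T` and `a`. -/
def Weighted {W : Type*} [AddCommGroup W] (p : ℕ) (ρ : H →* AddMonoid.End W) (R : Subgroup H)
    (T : AddSubgroup W) (a : H) : Prop :=
  ∃ t ∈ Subgroup.normalizer (R : Set H), ∃ m n : ℕ, (m : ZMod p) * (n : ZMod p) = 1 ∧
    orderOf (m : ZMod p) = p - 1 ∧ (∃ x ∈ T, x ≠ 0 ∧ ρ t x = m • x) ∧
    ∃ (S₂ : AddSubgroup W) (f₁ f₂ : W), (∀ h : H, ∀ x ∈ S₂, ρ h x ∈ S₂) ∧
      ρ a f₁ - f₁ ∈ S₂ ∧ ρ a f₂ - f₂ - f₁ ∈ S₂ ∧ ρ t f₁ - m • f₁ ∈ S₂ ∧ ρ t f₂ - n • f₂ ∈ S₂ ∧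
      ∀ i j : ℤ, i • f₁ + j • f₂ ∈ S₂ → (p : ℤ) ∣ i ∧ (p : ℤ) ∣ j

variable {p : ℕ} [Fact p.Prime]

/-- Natural scalars congruent modulo `p` act alike on a group of exponent `p`. -/
theorem nsmul_congr {W : Type*} [AddCommGroup W] (hW : ∀ x : W, p • x = 0) {i j : ℕ}
    (h : (i : ZMod p) = (j : ZMod p)) (x : W) : i • x = j • x := by
  rw [ZMod.natCast_eq_natCast_iff'] at h
  rw [← Nat.mod_add_div i p, ← Nat.mod_add_div j p, add_nsmul, add_nsmul, mul_comm p, mul_comm p,
    mul_nsmul', mul_nsmul', hW, smul_zero, smul_zero, h]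

/-- Every element acts through the monoid generated by the images of `a` and `b`. -/
theorem mem_of_gen [Finite H] {W : Type*} [AddCommGroup W] (ρ : H →* AddMonoid.End W) {a b : H}
    (hgen : ∀ h : H, ∃ h' ∈ Subgroup.closure ({a, b} : Set H), ρ h = ρ h')
    (P : Submonoid (AddMonoid.End W)) (ha : ρ a ∈ P) (hb : ρ b ∈ P) (h : H) : ρ h ∈ P := by
  obtain ⟨h', hh', e⟩ := hgen h
  rw [e]
  have hc : h' ∈ (Subgroup.closure ({a, b} : Set H)).toSubmonoid := hh'
  rw [Subgroup.closure_toSubmonoid_of_finite] at hc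
  exact (Submonoid.closure_le (S := P.comap ρ)).2 (by rintro y (rfl | rfl) <;> assumption) hc

set_option maxHeartbeats 1000000 in
/-- The irreducible case. -/
theorem irreducible_weight {W : Type*} [AddCommGroup W] [Finite W] (hp : p ≠ 2)
    (hW : ∀ x : W, p • x = 0) [Finite H] (ρ : H →* AddMonoid.End W) (a b : H)
    (hgen : ∀ h : H, ∃ h' ∈ Subgroup.closure ({a, b} : Set H), ρ h = ρ h')
    (ha : ∀ x, ρ a (ρ a x - x) = ρ a x - x) (hb : ∀ x, ρ b (ρ b x - x) = ρ b x - x)
    (hnt : ∃ (h : H) (x : W), ρ h x ≠ x)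
    (hirr : ∀ S : AddSubgroup W, (∀ h : H, ∀ s ∈ S, ρ h s ∈ S) → S = ⊥ ∨ S = ⊤)
    (R : Sylow p H) (haR : a ∈ (R : Subgroup H)) {v : W} (hv0 : v ≠ 0)
    (hvR : ∀ r ∈ (R : Subgroup H), ρ r v = v) :
    ∃ t ∈ Subgroup.normalizer ((R : Subgroup H) : Set H), ∃ m n : ℕ,
      (m : ZMod p) * (n : ZMod p) = 1 ∧ orderOf (m : ZMod p) = p - 1 ∧ ρ t v = m • v ∧
      ∃ f₁ f₂ : W, ρ a f₁ = f₁ ∧ ρ a f₂ = f₂ + f₁ ∧ ρ t f₁ = m • f₁ ∧ ρ t f₂ = n • f₂ ∧
        ∀ i j : ℤ, i • f₁ + j • f₂ = 0 → (p : ℤ) ∣ i ∧ (p : ℤ) ∣ j := by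
  classical
  have hpp : p.Prime := Fact.out
  have hinv : ∀ S : AddSubgroup W, (∀ s ∈ S, ρ a s ∈ S) → (∀ s ∈ S, ρ b s ∈ S) →
      ∀ h : H, ∀ s ∈ S, ρ h s ∈ S := fun S hSa hSb h =>
    mem_of_gen ρ hgen
      { carrier := {e | ∀ s ∈ S, e s ∈ S}
        one_mem' := fun s hs => by simpa using hs
        mul_mem' := fun {g h} hg hh s hs => by simpa using hg _ (hh s hs) } hSa hSb h
  set u : AddMonoid.End W := ρ a - 1 with hu
  set w' : AddMonoid.End W := ρ b - 1 with hw'
  have hu_apply : ∀ x, u x = ρ a x - x := fun x => rfl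
  have hw_apply : ∀ x, w' x = ρ b x - x := fun x => rfl
  have huu : ∀ x, u (u x) = 0 := fun x => by rw [hu_apply, hu_apply, ha, sub_self]
  have hww : ∀ x, w' (w' x) = 0 := fun x => by rw [hw_apply, hw_apply, hb, sub_self]
  set z : AddMonoid.End W := u * w' + w' * u with hz
  have hz_apply : ∀ x, z x = u (w' x) + w' (u x) := fun x => rfl
  have hzu : ∀ x, u (z x) = z (u x) := fun x => by
    rw [hz_apply, hz_apply, map_add, huu, huu, map_zero, zero_add, add_zero]
  have hzw : ∀ x, w' (z x) = z (w' x) := fun x => by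
    rw [hz_apply, hz_apply, map_add, hww, hww, map_zero, zero_add, add_zero]
  have hcomm : ∀ (h : H) x, ρ h (z x) = z (ρ h x) := fun h =>
    mem_of_gen ρ hgen
      { carrier := {e | ∀ x, e (z x) = z (e x)}
        one_mem' := fun x => by simp
        mul_mem' := fun {g h} hg hh x => by
          simp only [AddMonoid.End.coe_mul, Function.comp_apply]
          rw [hh, hg] }
      (fun x => by
        have h := hzu x
        rw [hu_apply, hu_apply, map_sub] at h
        exact sub_left_inj.1 h)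
      (fun x => by
        have h := hzw x
        rw [hw_apply, hw_apply, map_sub] at h
        exact sub_left_inj.1 h) h
  have hρtriv : (∀ x, u x = 0) → (∀ x, w' x = 0) → False := fun hu0 hw0 => by
    obtain ⟨h, x, hx⟩ := hnt
    refine hx ?_
    have : ρ h = 1 := mem_of_gen ρ hgen (⊥ : Submonoid (AddMonoid.End W))
      (AddMonoidHom.ext fun x => sub_eq_zero.1 (hu0 x))
      (AddMonoidHom.ext fun x => sub_eq_zero.1 (hw0 x)) h
    rw [this]; rfl
  -- `z` is not zero
  have key : ∀ (e f : AddMonoid.End W) (c d : H), (∀ x, e x = ρ c x - x) → (∀ x, f x = ρ d x - x) →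
      (∀ x, e (e x) = 0) → (∀ x, e (f x) + f (e x) = 0) →
      (∀ S : AddSubgroup W, (∀ s ∈ S, ρ c s ∈ S) → (∀ s ∈ S, ρ d s ∈ S) → S = ⊥ ∨ S = ⊤) →
      ∀ x, e x = 0 := by
    intro e f c d he hf hee hef hir x
    have hS : (e : W →+ W).ker = ⊥ ∨ (e : W →+ W).ker = ⊤ := by
      refine hir _ (fun s hs => ?_) (fun s hs => ?_)
      · have hs' : e s = 0 := hs
        rw [he] at hs'
        rw [sub_eq_zero.1 hs']
        exact hs
      · have hs' : e s = 0 := hs
        show e (ρ d s) = 0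
        have : ρ d s = f s + s := by rw [hf]; abel
        rw [this, map_add, hs', add_zero]
        have h := hef s
        rwa [hs', map_zero, add_zero] at h
    rcases hS with h | h
    · have : e x ∈ (e : W →+ W).ker := hee x
      rwa [h, AddSubgroup.mem_bot] at this
    · exact (h ▸ AddSubgroup.mem_top x : x ∈ (e : W →+ W).ker)
  have hz0 : z ≠ 0 := by
    intro h0
    have h0' : ∀ x, u (w' x) + w' (u x) = 0 := fun x => by rw [← hz_apply, h0]; rfl
    exact hρtriv
      (key u w' a b hu_apply hw_apply huu h0' fun S h1 h2 => hirr S (hinv S h1 h2))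
      (key w' u b a hw_apply hu_apply hww (fun x => by rw [add_comm]; exact h0' x)
        fun S h1 h2 => hirr S (hinv S h2 h1))
  -- the field generated by `z`
  let K := Subring.closure ({z} : Set (AddMonoid.End W))
  have hKcent : ∀ k : K, ∀ h : H, ∀ x, ρ h ((k : AddMonoid.End W) x) = (k : AddMonoid.End W) (ρ h x) := by
    intro k h
    have hle : K ≤ Subring.centralizer {ρ h} := Subring.closure_le.2 (by
      rintro _ rfl
      refine Subring.mem_centralizer_iff.2 ?_
      rintro _ rfl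
      exact AddMonoidHom.ext fun x => hcomm h x)
    intro x
    exact DFunLike.congr_fun (Subring.mem_centralizer_iff.1 (hle k.2) (ρ h) rfl) x
  letI : CommRing K := Subring.closureCommRingOfComm (by rintro _ rfl _ rfl; rfl)
  have hKnt : Nontrivial K := by
    refine ⟨⟨1, 0, fun h => ?_⟩⟩
    exact hv0 (DFunLike.congr_fun (congrArg Subtype.val h) v)
  have hKker : ∀ k : K, k ≠ 0 → ∀ x, (k : AddMonoid.End W) x = 0 → x = 0 := by
    intro k hk x hx
    have hkerinv : ∀ h : H, ∀ s ∈ ((k : AddMonoid.End W) : W →+ W).ker,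
        ρ h s ∈ ((k : AddMonoid.End W) : W →+ W).ker := fun h s hs => by
      show (k : AddMonoid.End W) (ρ h s) = 0
      rw [← hKcent k h s, show (k : AddMonoid.End W) s = 0 from hs, map_zero]
    rcases hirr _ hkerinv with h | h
    · have : x ∈ ((k : AddMonoid.End W) : W →+ W).ker := hx
      rwa [h, AddSubgroup.mem_bot] at this
    · refine absurd (Subtype.ext (AddMonoidHom.ext fun y => ?_) : k = 0) hk
      have hy : y ∈ ((k : AddMonoid.End W) : W →+ W).ker := by rw [h]; exact AddSubgroup.mem_top y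
      exact hy
  have : NoZeroDivisors K := ⟨fun {k l} hkl => by
    by_contra h
    push Not at h
    refine h.2 (Subtype.ext (AddMonoidHom.ext fun y => hKker k h.1 _ ?_))
    exact DFunLike.congr_fun (congrArg Subtype.val hkl) y⟩
  have : IsDomain K := NoZeroDivisors.to_isDomain K
  have : Finite (AddMonoid.End W) := Finite.of_injective _ DFunLike.coe_injective
  have : Finite K := Subtype.finite
  letI : Field K := (Finite.isField_of_domain K).toField
  have hKp : CharP K p := (CharP.charP_iff_prime_eq_zero (Fact.out : p.Prime)).2 (by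
    refine Subtype.ext (AddMonoidHom.ext fun x => ?_)
    show ((p : K) : AddMonoid.End W) x = 0
    rw [show ((p : K) : AddMonoid.End W) = (p : AddMonoid.End W) from map_natCast K.subtype p,
      AddMonoid.End.natCast_apply, hW])
  let lam : K := ⟨z, Subring.subset_closure rfl⟩
  have hlam : lam ≠ 0 := fun h => hz0 (congrArg Subtype.val h)
  have hva : ρ a v = v := hvR a haR
  have hv : u v = 0 := by rw [hu_apply, hva, sub_self]
  set v' := w' v with hv'
  have hzv : u v' = z v := by rw [hz_apply, hv, map_zero, add_zero]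
  let Φ : (Fin 2 → K) →+ W :=
    { toFun := fun x => (x 0 : AddMonoid.End W) v + (x 1 : AddMonoid.End W) v'
      map_zero' := add_zero 0
      map_add' := fun x y => by
        show ((x 0 : AddMonoid.End W) v + (y 0 : AddMonoid.End W) v) +
          ((x 1 : AddMonoid.End W) v' + (y 1 : AddMonoid.End W) v') = _
        abel }
  have hΦ : ∀ x, Φ x = (x 0 : AddMonoid.End W) v + (x 1 : AddMonoid.End W) v' := fun x => rfl
  have hΦv : Φ ![1, 0] = v := by
    rw [hΦ]
    show v + 0 = v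
    rw [add_zero]
  have hKu : ∀ (k : K) x, u ((k : AddMonoid.End W) x) = (k : AddMonoid.End W) (u x) := fun k x => by
    rw [hu_apply, hu_apply, hKcent, map_sub]
  have hΦinj : Function.Injective Φ := by
    refine (injective_iff_map_eq_zero Φ).2 fun x hx => ?_
    have hx1 : x 1 = 0 := by
      by_contra h
      have h1 := congrArg u hx
      rw [hΦ, map_add, map_zero, hKu, hKu, hv, map_zero, zero_add, hzv] at h1
      exact hv0 (hKker lam hlam v (hKker (x 1) h _ h1))
    rw [hΦ, hx1] at hx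
    replace hx : (x 0 : AddMonoid.End W) v + 0 = 0 := hx
    rw [add_zero] at hx
    have hx0 : x 0 = 0 := by
      by_contra h
      exact hv0 (hKker (x 0) h v hx)
    funext i; fin_cases i <;> assumption
  have hadd : ∀ (k l : K) (y : W), ((k + l : K) : AddMonoid.End W) y =
      (k : AddMonoid.End W) y + (l : AddMonoid.End W) y := fun _ _ _ => rfl
  have hmul : ∀ (k : K) (y : W), ((k * lam : K) : AddMonoid.End W) y =
      (k : AddMonoid.End W) (z y) := fun _ _ => rfl
  have hactA : ∀ x, ρ a (Φ x) = Φ ((upperUni lam : Matrix (Fin 2) (Fin 2) K) *ᵥ x) := fun x => by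
    have hav' : ρ a v' = v' + z v := by rw [← hzv, hu_apply]; abel
    rw [hΦ, map_add, hKcent, hKcent, hva, hav', hΦ, map_add]
    simp only [H35.coe_upperUni, mulVec, dotProduct, Fin.sum_univ_two, of_apply, cons_val_zero,
      cons_val_one]
    have e : (lam * x 1 : K) = x 1 * lam := mul_comm _ _
    simp only [one_mul, zero_mul, zero_add, e, hadd, hmul]
    abel
  have hactB : ∀ x, ρ b (Φ x) = Φ ((lowerUni (1 : K) : Matrix (Fin 2) (Fin 2) K) *ᵥ x) := fun x => by
    have hbv : ρ b v = v + v' := by rw [hv', hw_apply]; abel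
    have hbv' : ρ b v' = v' := sub_eq_zero.1 (hww v)
    rw [hΦ, map_add, hKcent, hKcent, hbv, hbv', hΦ, map_add]
    simp only [H35.coe_lowerUni, mulVec, dotProduct, Fin.sum_univ_two, of_apply, cons_val_zero,
      cons_val_one]
    simp only [one_mul, zero_mul, add_zero, hadd]
    abel
  have hsl : ∀ (g g' : SpecialLinearGroup (Fin 2) K) (x : Fin 2 → K),
      ((g * g' : SpecialLinearGroup (Fin 2) K) : Matrix (Fin 2) (Fin 2) K) *ᵥ x =
        (g : Matrix (Fin 2) (Fin 2) K) *ᵥ ((g' : Matrix (Fin 2) (Fin 2) K) *ᵥ x) := fun g g' x =>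
    (mulVec_mulVec x g.1 g'.1).symm
  -- every element acts linearly with determinant one
  have hmap : ∀ h : H, ∃ g : SpecialLinearGroup (Fin 2) K, ∀ x,
      ρ h (Φ x) = Φ ((g : Matrix (Fin 2) (Fin 2) K) *ᵥ x) := fun h =>
    mem_of_gen ρ hgen
      { carrier := {e | ∃ g : SpecialLinearGroup (Fin 2) K, ∀ x,
          e (Φ x) = Φ ((g : Matrix (Fin 2) (Fin 2) K) *ᵥ x)}
        one_mem' := ⟨1, fun x => by simp⟩
        mul_mem' := by
          rintro e e' ⟨g, hg⟩ ⟨g', hg'⟩
          refine ⟨g * g', fun x => ?_⟩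
          show e (e' (Φ x)) = Φ ((g.1 * g'.1) *ᵥ x)
          rw [← mulVec_mulVec, hg', hg] }
      ⟨_, hactA⟩ ⟨_, hactB⟩ h
  have hsurj : ∀ y : W, ∃ x, Φ x = y := by
    intro y
    rcases hirr Φ.range (fun h s hs => by
        obtain ⟨x, rfl⟩ := hs
        obtain ⟨g, hg⟩ := hmap h
        exact ⟨_, (hg x).symm⟩) with h | h
    · exfalso
      have : v ∈ Φ.range := ⟨_, hΦv⟩
      rw [h, AddSubgroup.mem_bot] at this
      exact hv0 this
    · exact (h ▸ AddSubgroup.mem_top y : y ∈ Φ.range)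
  let T : Subgroup (SpecialLinearGroup (Fin 2) K) :=
    { carrier := {g | ∃ h : H, ∀ x, ρ h (Φ x) = Φ ((g : Matrix (Fin 2) (Fin 2) K) *ᵥ x)}
      one_mem' := ⟨1, fun x => by simp⟩
      mul_mem' := by
        rintro g g' ⟨h, hh⟩ ⟨h', hh'⟩
        refine ⟨h * h', fun x => ?_⟩
        rw [map_mul]
        show ρ h (ρ h' (Φ x)) = Φ ((g.1 * g'.1) *ᵥ x)
        rw [← mulVec_mulVec, hh', hh]
      inv_mem' := by
        rintro g ⟨h, hh⟩
        refine ⟨h⁻¹, fun x => ?_⟩
        set y := ((g⁻¹ : SpecialLinearGroup (Fin 2) K) : Matrix (Fin 2) (Fin 2) K) *ᵥ x with hy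
        have hgy : (g : Matrix (Fin 2) (Fin 2) K) *ᵥ y = x := by
          rw [hy, ← hsl, mul_inv_cancel]
          exact one_mulVec x
        calc ρ h⁻¹ (Φ x) = ρ h⁻¹ (ρ h (Φ y)) := by rw [hh, hgy]
          _ = ρ (h⁻¹ * h) (Φ y) := by rw [map_mul]; rfl
          _ = Φ y := by simp }
  have hT : Subgroup.closure ({upperUni lam, lowerUni 1} : Set (SpecialLinearGroup (Fin 2) K)) ≤ T := by
    refine (Subgroup.closure_le _).2 ?_
    rintro g (rfl | rfl)
    · exact ⟨a, hactA⟩
    · exact ⟨b, hactB⟩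
  obtain ⟨g₁, hg₁, g₂, hg₂, e₁, e₂, hD, h11, h12, h21, h22⟩ := H35.exists_standard_pair (p := p) hp hlam
  -- powers of the standard pair
  have hpow1 : ∀ (c : ℕ) (α β : K), ((g₁ ^ c : SpecialLinearGroup (Fin 2) K) :
      Matrix (Fin 2) (Fin 2) K) *ᵥ (α • e₁ + β • e₂) = (α + c * β) • e₁ + β • e₂ := by
    intro c
    induction c with
    | zero => intro α β; simp
    | succ c ih =>
      intro α β
      rw [pow_succ, hsl, mulVec_add, mulVec_smul,
        mulVec_smul, h11, h12, show α • e₁ + β • (e₂ + e₁) = (α + β) • e₁ + β • e₂ by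
          rw [smul_add, add_smul]; abel, ih]
      push_cast
      congr 1
      rw [show α + β + c * β = α + (c + 1) * β by ring]
  have hpow2 : ∀ (c : ℕ) (α β : K), ((g₂ ^ c : SpecialLinearGroup (Fin 2) K) :
      Matrix (Fin 2) (Fin 2) K) *ᵥ (α • e₁ + β • e₂) = α • e₁ + (β + c * α) • e₂ := by
    intro c
    induction c with
    | zero => intro α β; simp
    | succ c ih =>
      intro α β
      rw [pow_succ, hsl, mulVec_add, mulVec_smul,
        mulVec_smul, h21, h22, show α • (e₁ + e₂) + β • e₂ = α • e₁ + (β + α) • e₂ by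
          rw [smul_add, add_smul]; abel, ih]
      push_cast
      congr 1
      rw [show β + α + c * α = β + (c + 1) * α by ring]
  have hbasis : ∀ x : Fin 2 → K,
      x = (det2 x e₂ / det2 e₁ e₂) • e₁ + (det2 e₁ x / det2 e₁ e₂) • e₂ := by
    intro x
    funext i
    simp only [Pi.add_apply, Pi.smul_apply, smul_eq_mul]
    rw [div_mul_eq_mul_div, div_mul_eq_mul_div, ← add_div, eq_div_iff hD]
    fin_cases i <;> simp [det2] <;> ring
  -- the scalar
  obtain ⟨γ₀, hγ₀⟩ := IsCyclic.exists_ofOrder_eq_natCard (α := (ZMod p)ˣ)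
  rw [Nat.card_eq_fintype_card, ZMod.card_units] at hγ₀
  set m := (γ₀ : ZMod p).val with hm
  set n := ((γ₀⁻¹ : (ZMod p)ˣ) : ZMod p).val with hn
  have hmc : (m : ZMod p) = γ₀ := by rw [hm, ZMod.natCast_zmod_val]
  have hnc : (n : ZMod p) = ((γ₀⁻¹ : (ZMod p)ˣ) : ZMod p) := by rw [hn, ZMod.natCast_zmod_val]
  have hmn : (m : ZMod p) * (n : ZMod p) = 1 := by rw [hmc, hnc, Units.mul_inv]
  have hmord : orderOf (m : ZMod p) = p - 1 := by rw [hmc, orderOf_units, hγ₀]
  have hmnK : (m : K) * (n : K) = 1 := by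
    have := congrArg (ZMod.castHom (dvd_refl p) K) hmn
    simpa using this
  have hmK0 : (m : K) ≠ 0 := left_ne_zero_of_mul_eq_one hmnK
  set n' := (-((γ₀⁻¹ : (ZMod p)ˣ) : ZMod p)).val with hn'
  have hn'K : (m : K) * (n' : K) = -1 := by
    have h1 : (m : ZMod p) * (n' : ZMod p) = -1 := by
      rw [hmc, hn', ZMod.natCast_zmod_val, mul_neg, Units.mul_inv]
    have := congrArg (ZMod.castHom (dvd_refl p) K) h1
    simpa using this
  have hp1K : ((p - 1 : ℕ) : K) = -1 := by
    rw [Nat.cast_sub hpp.one_le, CharP.cast_eq_zero, Nat.cast_one, zero_sub]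
  set g₀ := (g₁ ^ m * g₂ ^ n' * g₁ ^ m) * (g₁ ^ (p - 1) * g₂ ^ 1 * g₁ ^ (p - 1)) with hg₀
  have hg₀e : (g₀ : Matrix (Fin 2) (Fin 2) K) *ᵥ e₁ = (m : K) • e₁ := by
    have e : e₁ = (1 : K) • e₁ + (0 : K) • e₂ := by simp
    conv_lhs => rw [e]
    simp only [hg₀, hsl, hpow1, hpow2, hp1K, Nat.cast_one, mul_zero, zero_mul, add_zero, zero_add,
      one_mul, mul_one, add_neg_cancel]
    rw [show (n' : K) * (m : K) = -1 by rw [mul_comm]; exact hn'K, add_neg_cancel, mul_zero,
      add_zero, zero_smul, add_zero]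
  have hg₀T : g₀ ∈ T := hT (mul_mem (mul_mem (mul_mem (pow_mem hg₁ _) (pow_mem hg₂ _)) (pow_mem hg₁ _))
    (mul_mem (mul_mem (pow_mem hg₁ _) (pow_mem hg₂ _)) (pow_mem hg₁ _)))
  obtain ⟨t₀, ht₀⟩ := hg₀T
  obtain ⟨a', ha'⟩ := hT hg₁
  have ha'p : ρ a' ^ p = 1 := by
    rw [← map_pow]
    refine AddMonoidHom.ext fun y => ?_
    obtain ⟨x, rfl⟩ := hsurj y
    have hh : ∀ (c : ℕ) x, ρ (a' ^ c) (Φ x) =
        Φ (((g₁ ^ c : SpecialLinearGroup (Fin 2) K) : Matrix (Fin 2) (Fin 2) K) *ᵥ x) := by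
      intro c
      induction c with
      | zero => intro x; simp
      | succ c ih =>
        intro x
        rw [pow_succ, map_mul, pow_succ, hsl]
        show ρ (a' ^ c) (ρ a' (Φ x)) = _
        rw [ha', ih]
    show ρ (a' ^ p) (Φ x) = Φ x
    rw [hh, hbasis x, hpow1, CharP.cast_eq_zero, zero_mul, add_zero]
  obtain ⟨i, q, hq, hord⟩ := Nat.exists_eq_pow_mul_and_not_dvd (orderOf_pos a').ne' p hpp.ne_one
  obtain ⟨j, hj⟩ : ∃ j : ℕ, (q * j) % p = 1 := by
    refine ⟨((q : ZMod p)⁻¹).val, ?_⟩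
    have hq0 : (q : ZMod p) ≠ 0 := by rwa [Ne, ZMod.natCast_eq_zero_iff]
    have : ((q * ((q : ZMod p)⁻¹).val : ℕ) : ZMod p) = ((1 : ℕ) : ZMod p) := by
      rw [Nat.cast_mul, ZMod.natCast_zmod_val, mul_inv_cancel₀ hq0, Nat.cast_one]
    rw [ZMod.natCast_eq_natCast_iff', Nat.one_mod_eq_one.2 hpp.ne_one] at this
    exact this
  set a'' := a' ^ (q * j) with ha''
  have hρa'' : ρ a'' = ρ a' := by
    rw [ha'', map_pow, pow_eq_pow_mod _ ha'p, hj, pow_one]
  have ha''p : IsPGroup p (Subgroup.zpowers a'') := by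
    refine IsPGroup.iff_card.2 ?_
    have hdvd : Nat.card (Subgroup.zpowers a'') ∣ p ^ i := by
      rw [Nat.card_zpowers]
      refine orderOf_dvd_of_pow_eq_one ?_
      rw [ha'', ← pow_mul, ← orderOf_dvd_iff_pow_eq_one, hord]
      exact Dvd.intro j (by ring)
    obtain ⟨k, -, hk⟩ := (Nat.dvd_prime_pow hpp).1 hdvd
    exact ⟨k, hk⟩
  have hRsyl : H23.IsSylowIn p (R : Subgroup H) ⊤ := H61.sylowIn_of_le R le_top
  obtain ⟨l, -, hl⟩ := H61.exists_cj_le hRsyl le_top ha''p
  -- `v` is a scalar multiple of the moved line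
  obtain ⟨x, hx⟩ := hsurj (ρ l⁻¹ v)
  have hfix : ρ a'' (ρ l⁻¹ v) = ρ l⁻¹ v := by
    have h1 : ρ (l * a'' * l⁻¹) v = v := hvR _ (hl (H61.conj_mem_cj (Subgroup.mem_zpowers a'')))
    have h2 : ρ (l⁻¹ * (l * a'' * l⁻¹)) v = ρ l⁻¹ v := by rw [map_mul]; exact congrArg (ρ l⁻¹) h1
    rw [show l⁻¹ * (l * a'' * l⁻¹) = a'' * l⁻¹ by group, map_mul] at h2
    exact h2
  rw [← hx, hρa'', ha'] at hfix
  have hfix' := hΦinj hfix
  rw [hbasis x] at hfix'
  set α := det2 x e₂ / det2 e₁ e₂ with hα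
  set β := det2 e₁ x / det2 e₁ e₂ with hβ
  have hne₁ : e₁ ≠ 0 := fun h => hD (by simp [det2, h])
  have hβ0 : β = 0 := by
    rw [← pow_one g₁, hpow1, Nat.cast_one, one_mul, add_smul, add_assoc, add_comm (β • e₁),
      ← add_assoc, add_eq_left] at hfix'
    exact (smul_eq_zero.1 hfix').resolve_right hne₁
  have hxe : x = α • e₁ := by rw [hbasis x, ← hα, ← hβ, hβ0, zero_smul, add_zero]
  set t₁ := l * t₀ * l⁻¹ with ht₁
  have hsc : ∀ (c : ℕ) (x : Fin 2 → K), Φ ((c : K) • x) = c • Φ x := fun c x => by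
    rw [Nat.cast_smul_eq_nsmul, map_nsmul]
  have ht₁v : ρ t₁ v = m • v := by
    rw [ht₁, map_mul, map_mul]
    show ρ l (ρ t₀ (ρ l⁻¹ v)) = _
    rw [← hx, ht₀, hxe, mulVec_smul, hg₀e, smul_comm, ← hxe, hsc, map_nsmul, hx]
    congr 1
    show ρ l (ρ l⁻¹ v) = v
    show (ρ l * ρ l⁻¹) v = v
    rw [← map_mul, mul_inv_cancel, map_one]
    rfl
  have hnmv : m • n • v = v := by
    rw [← mul_nsmul', nsmul_congr hW (j := 1) (by rw [Nat.cast_mul, hmn, Nat.cast_one]), one_nsmul]
  have ht₁v' : ρ t₁⁻¹ v = n • v := by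
    have h1 : ρ t₁ (n • v) = v := by rw [map_nsmul, ht₁v, smul_comm, hnmv]
    conv_lhs => rw [← h1]
    show (ρ t₁⁻¹ * ρ t₁) (n • v) = n • v
    rw [← map_mul, inv_mul_cancel, map_one]
    rfl
  let Stab : Subgroup H :=
    { carrier := {h | ρ h v = v}
      one_mem' := by simp
      mul_mem' := fun {g h} hg hh => by
        show ρ (g * h) v = v
        rw [map_mul]; show ρ g (ρ h v) = v
        rw [show ρ h v = v from hh]; exact hg
      inv_mem' := fun {h} hh => by
        show ρ h⁻¹ v = v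
        conv_lhs => rw [← (show ρ h v = v from hh)]
        show (ρ h⁻¹ * ρ h) v = v
        rw [← map_mul, inv_mul_cancel, map_one]
        rfl }
  have hcjle : cj t₁ Stab ≤ Stab := by
    rintro _ ⟨h, hh, rfl⟩
    show ρ (t₁ * h * t₁⁻¹) v = v
    rw [map_mul, map_mul]
    show ρ t₁ (ρ h (ρ t₁⁻¹ v)) = v
    rw [ht₁v', map_nsmul, show ρ h v = v from hh, map_nsmul, ht₁v, smul_comm, hnmv]
  have hRS : H23.IsSylowIn p (R : Subgroup H) Stab := H61.sylowIn_of_le R hvR
  have hRS' := H61.sylowIn_cj hRS t₁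
  rw [H61.cj_eq_of_le hcjle] at hRS'
  obtain ⟨s, hs, hse⟩ := H61.exists_cj_eq hRS' hRS
  rw [H61.cj_cj] at hse
  set t₂ := s * t₁ with ht₂
  have ht₂N : t₂ ∈ Subgroup.normalizer ((R : Subgroup H) : Set H) := H61.mem_normalizer_of_cj hse
  have ht₂v : ρ t₂ v = m • v := by
    rw [ht₂, map_mul]
    show ρ s (ρ t₁ v) = _
    rw [ht₁v, map_nsmul, show ρ s v = v from hs]
  obtain ⟨g, hg⟩ := hmap t₂
  have hcol : (g : Matrix (Fin 2) (Fin 2) K) *ᵥ ![1, 0] = (m : K) • ![1, 0] := by
    apply hΦinj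
    rw [← hg, hsc, hΦv, ht₂v]
  have hg00 : g.1 0 0 = (m : K) := by simpa [mulVec, dotProduct] using congrFun hcol 0
  have hg10 : g.1 1 0 = 0 := by simpa [mulVec, dotProduct] using congrFun hcol 1
  have hg11 : g.1 1 1 = (n : K) := by
    have hdet := g.2
    rw [Matrix.det_fin_two, hg00, hg10, mul_zero, sub_zero] at hdet
    exact mul_left_cancel₀ hmK0 (hdet.trans hmnK.symm)
  -- powers of `t₂`
  let c : ℕ → K := fun k => Nat.rec 0 (fun k ck => (m : K) * ck + g.1 0 1 * (n : K) ^ k) k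
  have hck : ∀ k : ℕ, ∀ x y : K, ρ (t₂ ^ k) (Φ ![x, y]) =
      Φ ![(m : K) ^ k * x + c k * y, (n : K) ^ k * y] := by
    intro k
    induction k with
    | zero => intro x y; simp [c]
    | succ k ih =>
      intro x y
      rw [pow_succ', map_mul]
      show ρ t₂ (ρ (t₂ ^ k) (Φ ![x, y])) = _
      rw [ih, hg]
      congr 1
      funext i
      fin_cases i <;>
        simp [mulVec, dotProduct, Fin.sum_univ_two, hg00, hg10, hg11, c, pow_succ'] <;> ring
  have hmp : ((m : K)) ^ p = (m : K) := by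
    have h1 : ((m : ZMod p)) ^ p = (m : ZMod p) := ZMod.pow_card _
    have := congrArg (ZMod.castHom (dvd_refl p) K) h1
    rwa [map_pow, map_natCast] at this
  have hnp' : ((n : K)) ^ p = (n : K) := by
    have h1 : ((n : ZMod p)) ^ p = (n : ZMod p) := ZMod.pow_card _
    have := congrArg (ZMod.castHom (dvd_refl p) K) h1
    rwa [map_pow, map_natCast] at this
  obtain ⟨γ, hγ⟩ : ∃ γ : K, (m : K) * γ + c p = (n : K) * γ := by
    by_cases hmn' : (m : K) = n
    · refine ⟨0, ?_⟩
      have hcm : ∀ k : ℕ, (m : K) * c k = k * g.1 0 1 * (m : K) ^ k := by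
        intro k
        induction k with
        | zero => simp [c]
        | succ k ih =>
          show (m : K) * ((m : K) * c k + g.1 0 1 * (n : K) ^ k) = _
          rw [mul_add, ih, ← hmn', pow_succ]
          push_cast; ring
      have h0 := hcm p
      rw [CharP.cast_eq_zero K p, zero_mul, zero_mul] at h0
      rw [(mul_eq_zero.1 h0).resolve_left hmK0, mul_zero, mul_zero, add_zero]
    · refine ⟨c p / ((n : K) - m), ?_⟩
      have hne : (n : K) - m ≠ 0 := sub_ne_zero.2 (Ne.symm hmn')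
      field_simp
      ring
  set t := t₂ ^ p with ht
  have htv : ρ t v = m • v := by
    conv_lhs => rw [← hΦv, ht, hck]
    rw [← hΦv, ← hsc]
    congr 1
    funext i
    fin_cases i <;> simp [hmp]
  refine ⟨t, pow_mem ht₂N p, m, n, hmn, hmord, htv, Φ ![lam, 0], Φ ![γ, 1], ?_, ?_, ?_, ?_,
    fun i j hij => ?_⟩
  · rw [hactA]; congr 1; funext i; fin_cases i <;> simp [H35.coe_upperUni, mulVec, dotProduct]
  · rw [hactA, ← map_add]; congr 1; funext i
    fin_cases i <;> simp [H35.coe_upperUni, mulVec, dotProduct] <;> ring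
  · rw [ht, hck, ← hsc]; congr 1; funext i; fin_cases i <;> simp [hmp]
  · rw [ht, hck, ← hsc]; congr 1; funext i; fin_cases i <;> simp [hnp', hmp]
    linear_combination hγ
  · rw [← map_zsmul, ← map_zsmul, ← map_add] at hij
    have h0 := hΦinj (hij.trans (map_zero Φ).symm)
    have h00 := congrFun h0 0
    have h01 := congrFun h0 1
    simp only [Pi.add_apply, Pi.smul_apply, Pi.mul_apply, Pi.intCast_apply, Pi.zero_apply, zsmul_eq_mul, cons_val_zero,
      cons_val_one, mul_zero, mul_one, zero_add] at h00 h01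
    refine ⟨?_, (CharP.intCast_eq_zero_iff K p j).1 h01⟩
    rw [h01, zero_mul, add_zero] at h00
    exact (CharP.intCast_eq_zero_iff K p i).1 ((mul_eq_zero.1 h00).resolve_right hlam)

/-- Weights exist for two quadratic elements not fixing a vector fixed by a Sylow subgroup. -/
theorem weighted {W : Type*} [AddCommGroup W] [Finite W] (hp : p ≠ 2)
    (hW : ∀ x : W, p • x = 0) [Finite H] (ρ : H →* AddMonoid.End W) (a b : H)
    (hgen : ∀ h : H, ∃ h' ∈ Subgroup.closure ({a, b} : Set H), ρ h = ρ h')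
    (ha : ∀ x, ρ a (ρ a x - x) = ρ a x - x) (hb : ∀ x, ρ b (ρ b x - x) = ρ b x - x)
    (R : Sylow p H) (haR : a ∈ (R : Subgroup H)) (T : AddSubgroup W) {v : W} (hvT : v ∈ T)
    (hvR : ∀ r ∈ (R : Subgroup H), ρ r v = v) (hmove : ∃ h : H, ρ h v ≠ v)
    (hT : ∀ t ∈ Subgroup.normalizer ((R : Subgroup H) : Set H), ∀ x ∈ T, ρ t x ∈ T) :
    Weighted p ρ (R : Subgroup H) T a := by
  classical
  induction hc : Nat.card W using Nat.strong_induction_on generalizing W with
  | _ c ih =>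
  subst hc
  have hpp : p.Prime := Fact.out
  set S := AddSubgroup.closure (Set.range fun h : H => ρ h v) with hS
  have hSinv : ∀ h : H, ∀ s ∈ S, ρ h s ∈ S := fun h => by
    intro s hs
    induction hs using AddSubgroup.closure_induction with
    | mem x hx =>
      obtain ⟨h', rfl⟩ := hx
      refine AddSubgroup.subset_closure ⟨h * h', ?_⟩
      show ρ (h * h') v = ρ h (ρ h' v)
      rw [map_mul]; rfl
    | zero => rw [map_zero]; exact zero_mem _
    | add x y _ _ hx hy => rw [map_add]; exact add_mem hx hy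
    | neg x _ hx => rw [map_neg]; exact neg_mem hx
  have hvS : v ∈ S := AddSubgroup.subset_closure ⟨1, by simp⟩
  by_cases hSt : S = ⊤
  swap
  · -- inside the span of `v`
    have hlt : Nat.card S < Nat.card W :=
      lt_of_le_of_ne (Nat.card_le_card_of_injective _ Subtype.val_injective)
        fun h => hSt (AddSubgroup.eq_top_of_card_eq S h)
    obtain ⟨t, ht, m, n, hmn, hord, ⟨x, hx, hx0, hxe⟩, S₂, f₁, f₂, h1, h2, h3, h4, h5, h6⟩ :=
      ih _ hlt (fun x => Subtype.ext (hW x)) (H35.subRep ρ S hSinv)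
        (fun h => (hgen h).imp fun h' hh' => ⟨hh'.1, AddMonoidHom.ext fun x => Subtype.ext
          (DFunLike.congr_fun hh'.2 (x : W))⟩)
        (fun x => Subtype.ext (ha x)) (fun x => Subtype.ext (hb x))
        (T.comap S.subtype) (v := ⟨v, hvS⟩) hvT (fun r hr => Subtype.ext (hvR r hr))
        (hmove.imp fun h hh e => hh (congrArg Subtype.val e))
        (fun t ht x hx => hT t ht x hx) rfl
    refine ⟨t, ht, m, n, hmn, hord, ⟨x, hx, fun e => hx0 (Subtype.ext e), congrArg Subtype.val hxe⟩,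
      S₂.map S.subtype, f₁, f₂, ?_, ⟨_, h2, rfl⟩, ⟨_, h3, rfl⟩, ⟨_, h4, rfl⟩, ⟨_, h5, rfl⟩,
      fun i j hij => ?_⟩
    · rintro h _ ⟨y, hy, rfl⟩
      exact ⟨_, h1 h y hy, rfl⟩
    · obtain ⟨y, hy, hye⟩ := hij
      have : y = i • f₁ + j • f₂ := Subtype.ext (by simpa using hye)
      exact h6 i j (this ▸ hy)
  -- the span is everything
  have hv0 : v ≠ 0 := fun e => by
    obtain ⟨h, hh⟩ := hmove
    exact hh (by rw [e, map_zero])
  obtain ⟨S₀, ⟨hS₀, hvS₀⟩, hmax⟩ := Set.exists_max_image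
    {S' : AddSubgroup W | (∀ h : H, ∀ s ∈ S', ρ h s ∈ S') ∧ v ∉ S'}
    (fun S' : AddSubgroup W => Nat.card S') (Set.toFinite _)
    ⟨⊥, fun h s hs => by rw [AddSubgroup.mem_bot.1 hs, map_zero]; exact zero_mem _,
      fun h => hv0 (AddSubgroup.mem_bot.1 h)⟩
  let π := QuotientAddGroup.mk' S₀
  set ρ' := H35.quotRep ρ S₀ hS₀ with hρ'
  have hq : ∀ (h : H) (x : W), ρ' h (π x) = π (ρ h x) := fun _ _ => rfl
  have hvq : π v ≠ 0 := fun e => hvS₀ ((QuotientAddGroup.eq_zero_iff v).1 e)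
  by_cases htriv : ∀ h : H, ρ h v - v ∈ S₀
  · -- trivial on the top: average
    let R' : Subgroup H := R
    have hwd : ∀ g g' : H, g⁻¹ * g' ∈ R' → ρ g v = ρ g' v := fun g g' hgg => by
      conv_lhs => rw [← hvR _ hgg]
      show (ρ g * ρ (g⁻¹ * g')) v = _
      rw [← map_mul, mul_inv_cancel_left]
    let f : H ⧸ R' → W := fun q => ρ q.out v
    have hf : ∀ g : H, f (g : H ⧸ R') = ρ g v := fun g =>
      hwd _ _ (QuotientGroup.eq.1 (Quotient.out_eq (g : H ⧸ R')))
    haveI : Fintype (H ⧸ R') := Fintype.ofFinite _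
    set w₀ := ∑ q, f q with hw₀
    have hw₀fix : ∀ h : H, ρ h w₀ = w₀ := fun h => by
      rw [hw₀, map_sum, ← Equiv.sum_comp (MulAction.toPerm h) f]
      refine Finset.sum_congr rfl fun q _ => ?_
      induction q using QuotientGroup.induction_on with
      | _ g =>
        show ρ h (f (g : H ⧸ R')) = f ((h * g : H) : H ⧸ R')
        rw [hf, hf, map_mul]; rfl
    obtain ⟨k', hk'⟩ : ∃ k' : ℕ, ((k' * R'.index : ℕ) : ZMod p) = ((1 : ℕ) : ZMod p) := by
      refine ⟨((R'.index : ZMod p)⁻¹).val, ?_⟩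
      have hne : (R'.index : ZMod p) ≠ 0 := by
        rw [Ne, ZMod.natCast_eq_zero_iff]; exact R.not_dvd_index
      rw [Nat.cast_mul, ZMod.natCast_zmod_val, inv_mul_cancel₀ hne, Nat.cast_one]
    set w := k' • w₀ with hw
    have hwfix : ∀ h : H, ρ h w = w := fun h => by rw [hw, map_nsmul, hw₀fix]
    have hvw : v - w ∈ S₀ := by
      have h1 : w₀ - R'.index • v ∈ S₀ := by
        have : R'.index • v = ∑ _q : H ⧸ R', v := by
          rw [Finset.sum_const, Finset.card_univ, ← Nat.card_eq_fintype_card]; rfl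
        rw [this, hw₀, ← Finset.sum_sub_distrib]
        exact sum_mem fun q _ => htriv _
      have h2 := S₀.nsmul_mem h1 k'
      rw [smul_sub, ← mul_nsmul', nsmul_congr hW hk', one_nsmul] at h2
      simpa [hw] using neg_mem h2
    have hlt : Nat.card S₀ < Nat.card W :=
      lt_of_le_of_ne (Nat.card_le_card_of_injective _ Subtype.val_injective)
        fun h => hvS₀ ((AddSubgroup.eq_top_of_card_eq S₀ h).symm ▸ AddSubgroup.mem_top v)
    set N := Subgroup.normalizer (R' : Set H)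
    let T'' : AddSubgroup S₀ :=
      { carrier := {y | ∀ s ∈ N, ρ s (y : W) - y ∈ T}
        zero_mem' := fun s _ => by simp [zero_mem]
        add_mem' := fun {y y'} hy hy' s hs => by
          have := add_mem (hy s hs) (hy' s hs)
          convert this using 1
          rw [AddSubgroup.coe_add, map_add]; abel
        neg_mem' := fun {y} hy s hs => by
          have := neg_mem (hy s hs)
          convert this using 1
          rw [AddSubgroup.coe_neg, map_neg]; abel }
    obtain ⟨t, ht, m, n, hmn, hord, ⟨x, hx, hx0, hxe⟩, S₂, f₁, f₂, h1, h2, h3, h4, h5, h6⟩ :=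
      ih _ hlt (fun x => Subtype.ext (hW x)) (H35.subRep ρ S₀ hS₀)
        (fun h => (hgen h).imp fun h' hh' => ⟨hh'.1, AddMonoidHom.ext fun x => Subtype.ext
          (DFunLike.congr_fun hh'.2 (x : W))⟩)
        (fun x => Subtype.ext (ha x)) (fun x => Subtype.ext (hb x))
        T'' (v := ⟨v - w, hvw⟩)
        (fun s hs => by
          show ρ s (v - w) - (v - w) ∈ T
          rw [map_sub, hwfix, sub_sub_sub_cancel_right]
          exact sub_mem (hT s hs v hvT) hvT)
        (fun r hr => Subtype.ext (by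
          show ρ r (v - w) = v - w
          rw [map_sub, hwfix, hvR r hr]))
        (hmove.imp fun h hh e => hh (by
          have e' : ρ h (v - w) = v - w := congrArg Subtype.val e
          rwa [map_sub, hwfix, sub_left_inj] at e'))
        (fun s hs y hy s' hs' => by
          have h1 := sub_mem (hy (s' * s) (mul_mem hs' hs)) (hy s hs)
          convert h1 using 1
          show ρ s' (ρ s (y : W)) - ρ s (y : W) = ρ (s' * s) (y : W) - y - (ρ s (y : W) - y)
          rw [map_mul]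
          show _ = ρ s' (ρ s (y : W)) - y - (ρ s (y : W) - y)
          abel) rfl
    have hxe' : ρ t (x : W) = m • (x : W) := by
      have e : ((H35.subRep ρ S₀ hS₀ t x : S₀) : W) = ρ t (x : W) := rfl
      rw [← e, hxe, AddSubmonoidClass.coe_nsmul]
    have hm1 : (m : ZMod p) ≠ 1 := fun e => by
      rw [e, orderOf_one] at hord
      have := hpp.two_le
      omega
    have hxT : (x : W) ∈ T := by
      have h1 : ρ t (x : W) - x ∈ T := hx t ht
      rw [hxe'] at h1
      set r := ((m : ZMod p) - 1)⁻¹.val with hr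
      have h2 := T.nsmul_mem h1 r
      rw [smul_sub, ← mul_nsmul'] at h2
      have h3 : ((r * m : ℕ) : ZMod p) = ((r + 1 : ℕ) : ZMod p) := by
        rw [Nat.cast_mul, Nat.cast_add, hr, ZMod.natCast_zmod_val, Nat.cast_one,
          ← sub_eq_iff_eq_add', ← mul_sub_one, inv_mul_cancel₀ (sub_ne_zero.2 hm1)]
      rwa [nsmul_congr hW h3, add_nsmul, one_nsmul, add_sub_cancel_left] at h2
    refine ⟨t, ht, m, n, hmn, hord, ⟨x, hxT, fun e => hx0 (Subtype.ext e), hxe'⟩,
      S₂.map S₀.subtype, f₁, f₂, ?_, ⟨_, h2, rfl⟩, ⟨_, h3, rfl⟩, ⟨_, h4, rfl⟩, ⟨_, h5, rfl⟩,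
      fun i j hij => ?_⟩
    · rintro h _ ⟨y, hy, rfl⟩
      exact ⟨_, h1 h y hy, rfl⟩
    · obtain ⟨y, hy, hye⟩ := hij
      have : y = i • f₁ + j • f₂ := Subtype.ext (by simpa using hye)
      exact h6 i j (this ▸ hy)
  -- irreducible nontrivial top
  push Not at htriv
  obtain ⟨h₀, hh₀⟩ := htriv
  have hirr : ∀ U : AddSubgroup (W ⧸ S₀), (∀ h : H, ∀ s ∈ U, ρ' h s ∈ U) → U = ⊥ ∨ U = ⊤ := by
    intro U hU
    set U' := U.comap π with hU'
    have hle : S₀ ≤ U' := fun s hs => by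
      show π s ∈ U
      rw [show π s = 0 from (QuotientAddGroup.eq_zero_iff s).2 hs]
      exact zero_mem _
    have hU'inv : ∀ h : H, ∀ s ∈ U', ρ h s ∈ U' := fun h s hs => by
      show π (ρ h s) ∈ U
      rw [← hq]; exact hU h _ hs
    by_cases hvU : v ∈ U'
    · right
      refine top_le_iff.1 fun y _ => ?_
      obtain ⟨y, rfl⟩ := QuotientAddGroup.mk'_surjective S₀ y
      have hSle : S ≤ U' := (AddSubgroup.closure_le _).2 (by
        rintro _ ⟨h, rfl⟩; exact hU'inv h v hvU)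
      exact hSle (hSt ▸ AddSubgroup.mem_top y)
    · left
      have hcard := hmax U' ⟨hU'inv, hvU⟩
      have he : S₀ = U' := AddSubgroup.eq_of_le_of_card_ge hle hcard
      refine le_bot_iff.1 fun y hy => ?_
      obtain ⟨y, rfl⟩ := QuotientAddGroup.mk'_surjective S₀ y
      exact AddSubgroup.mem_bot.2 ((QuotientAddGroup.eq_zero_iff y).2 (he.symm ▸ hy))
  obtain ⟨t, ht, m, n, hmn, hord, htv, f₁', f₂', hg1, hg2, hg3, hg4, hind⟩ :=
    irreducible_weight hp
      (fun x => by
        obtain ⟨x, rfl⟩ := QuotientAddGroup.mk'_surjective S₀ x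
        rw [← map_nsmul, hW, map_zero])
      ρ' a b
      (fun h => (hgen h).imp fun h' hh' => ⟨hh'.1, AddMonoidHom.ext fun x => by
        obtain ⟨x, rfl⟩ := QuotientAddGroup.mk'_surjective S₀ x
        show ρ' h (π x) = ρ' h' (π x)
        rw [hq, hq, hh'.2]⟩)
      (fun x => by
        obtain ⟨x, rfl⟩ := QuotientAddGroup.mk'_surjective S₀ x
        show ρ' a (ρ' a (π x) - π x) = ρ' a (π x) - π x
        rw [hq, ← map_sub, hq, ha])
      (fun x => by
        obtain ⟨x, rfl⟩ := QuotientAddGroup.mk'_surjective S₀ x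
        show ρ' b (ρ' b (π x) - π x) = ρ' b (π x) - π x
        rw [hq, ← map_sub, hq, hb])
      ⟨h₀, π v, fun e => hh₀ ((QuotientAddGroup.eq_zero_iff (ρ h₀ v - v)).1 (by
        show π (ρ h₀ v - v) = 0
        rw [map_sub, ← hq, e, sub_self]))⟩
      hirr R haR hvq (fun r hr => by rw [hq, hvR r hr])
  obtain ⟨f₁, rfl⟩ := QuotientAddGroup.mk'_surjective S₀ f₁'
  obtain ⟨f₂, rfl⟩ := QuotientAddGroup.mk'_surjective S₀ f₂'
  have heq : ∀ x y : W, π x = π y → x - y ∈ S₀ := fun x y e =>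
    (QuotientAddGroup.eq_zero_iff (x - y)).1 (by
      show π (x - y) = 0
      rw [map_sub, e, sub_self])
  refine ⟨t, ht, m, n, hmn, hord, ?_, S₀, f₁, f₂, hS₀, heq _ _ (by rw [← hq]; exact hg1), ?_,
    heq _ _ (by rw [← hq, map_nsmul]; exact hg3), heq _ _ (by rw [← hq, map_nsmul]; exact hg4),
    fun i j hij => hind i j ?_⟩
  · -- an exact eigenvector in `T`
    let φ : T →+ T :=
      { toFun := fun x => ⟨ρ t x - m • (x : W), sub_mem (hT t ht x x.2) (T.nsmul_mem x.2 m)⟩
        map_zero' := Subtype.ext (by simp)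
        map_add' := fun x y => Subtype.ext (by
          show ρ t ((x : W) + y) - m • ((x : W) + y) =
            (ρ t (x : W) - m • (x : W)) + (ρ t (y : W) - m • (y : W))
          rw [map_add, smul_add]; abel) }
    by_contra hno
    push Not at hno
    have hφinj : Function.Injective φ := by
      refine (injective_iff_map_eq_zero φ).2 fun x hx => ?_
      by_contra hx0
      exact hno x x.2 (fun e => hx0 (Subtype.ext e))
        (sub_eq_zero.1 (congrArg Subtype.val hx : ρ t (x : W) - m • (x : W) = 0))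
    have hφs := Finite.surjective_of_injective hφinj
    let T' := T.map π
    let ψ : T' → T' := fun y => ⟨ρ' t y - m • (y : W ⧸ S₀), by
      obtain ⟨x, hx, e⟩ := y.2
      rw [← e]
      exact ⟨_, (φ ⟨x, hx⟩).2, by rw [hq, ← map_nsmul, ← map_sub]; rfl⟩⟩
    have hψs : Function.Surjective ψ := by
      rintro ⟨_, x, hx, rfl⟩
      obtain ⟨x', hx'⟩ := hφs ⟨x, hx⟩
      refine ⟨⟨π x', x', x'.2, rfl⟩, Subtype.ext ?_⟩
      show ρ' t (π x') - m • π x' = π x
      rw [hq, ← map_nsmul, ← map_sub]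
      exact congrArg π (congrArg Subtype.val hx')
    have hψi := Finite.injective_iff_surjective.2 hψs
    have : ψ ⟨π v, v, hvT, rfl⟩ = ψ ⟨0, zero_mem _⟩ := Subtype.ext (by
      show ρ' t (π v) - m • π v = ρ' t 0 - m • (0 : W ⧸ S₀)
      rw [map_zero, smul_zero, sub_zero, htv, sub_self])
    exact hvq (congrArg Subtype.val (hψi this))
  · have h := heq (ρ a f₂) (f₂ + f₁) (by rw [← hq, map_add]; exact hg2)
    rwa [← sub_sub] at h
  · rw [← map_zsmul, ← map_zsmul, ← map_add]
    exact (QuotientAddGroup.eq_zero_iff _).2 hij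

end Cfsg.Agent.H74.ZJFail
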