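import Cfsg.Agent.H35.Sections
import Cfsg.Agent.H24.PGroupBasic
import Cfsg.Agent.H61.Basic
import Cfsg.Prelude.Def_LocalEven

/-!
A plane with a unipotent element and a torus of full order gives a section isomorphic to `F(p)`.
-/

set_option autoImplicit false

namespace Cfsg.Agent.H74.ZJFail

open Subgroup Matrix
open scoped commutatorElement
open Cfsg.Agent.H35 (affine affine_mul)

variable {p : ℕ} [Fact p.Prime]

/-- An upper unitriangular matrix. -/
def uni2 (c : ZMod p) : Matrix.SpecialLinearGroup (Fin 2) (ZMod p) :=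
  ⟨!![1, c; 0, 1], by simp [Matrix.det_fin_two]⟩

/-- A diagonal matrix. -/
def tor2 (m n : ZMod p) (h : m * n = 1) : Matrix.SpecialLinearGroup (Fin 2) (ZMod p) :=
  ⟨!![m, 0; 0, n], by simp [Matrix.det_fin_two, h]⟩

theorem uni2_mul (c c' : ZMod p) : uni2 c * uni2 c' = uni2 (c + c') := by
  apply Subtype.ext
  rw [Matrix.SpecialLinearGroup.coe_mul]
  ext r s
  fin_cases r <;> fin_cases s <;> simp [uni2, Matrix.mul_apply, Fin.sum_univ_two, add_comm]

theorem uni2_zero : uni2 (0 : ZMod p) = 1 := by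
  apply Subtype.ext
  ext r s
  fin_cases r <;> fin_cases s <;> simp [uni2]

theorem uni2_inj {c c' : ZMod p} (h : uni2 c = uni2 c') : c = c' := by
  simpa [uni2] using congrFun (congrFun (congrArg Subtype.val h) 0) 1

theorem uni2_pow (c : ZMod p) (k : ℕ) : uni2 c ^ k = uni2 ((k : ZMod p) * c) := by
  induction k with
  | zero => rw [pow_zero, Nat.cast_zero, zero_mul, uni2_zero]
  | succ k ih => rw [pow_succ, ih, uni2_mul, Nat.cast_succ, add_mul, one_mul]

theorem tor2_pow (m n : ZMod p) (h : m * n = 1) (k : ℕ) :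
    tor2 m n h ^ k = tor2 (m ^ k) (n ^ k) (by rw [← mul_pow, h, one_pow]) := by
  induction k with
  | zero =>
    rw [pow_zero]
    apply Subtype.ext
    ext r s
    fin_cases r <;> fin_cases s <;> simp [tor2]
  | succ k ih =>
    rw [pow_succ, ih]
    apply Subtype.ext
    rw [Matrix.SpecialLinearGroup.coe_mul]
    ext r s
    fin_cases r <;> fin_cases s <;> simp [tor2, Matrix.mul_apply, Fin.sum_univ_two, pow_succ]

theorem tor2_uni2 (m n : ZMod p) (h : m * n = 1) (c : ZMod p) :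
    tor2 m n h * uni2 c = uni2 (m * m * c) * tor2 m n h := by
  apply Subtype.ext
  rw [Matrix.SpecialLinearGroup.coe_mul, Matrix.SpecialLinearGroup.coe_mul]
  ext r s
  fin_cases r <;> fin_cases s <;>
    simp [tor2, uni2, Matrix.mul_apply, Fin.sum_univ_two]
  linear_combination (-(m * c)) * h

/-- The upper triangular subgroup. -/
def upperTri : Subgroup (Matrix.SpecialLinearGroup (Fin 2) (ZMod p)) where
  carrier := {g | g.1 1 0 = 0}
  one_mem' := by simp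
  mul_mem' := fun {g g'} hg hg' => by
    simp only [Set.mem_setOf_eq] at hg hg' ⊢
    rw [Matrix.SpecialLinearGroup.coe_mul, Matrix.mul_apply, Fin.sum_univ_two, hg, hg']
    simp
  inv_mem' := fun {g} hg => by
    simp only [Set.mem_setOf_eq] at hg ⊢
    rw [Matrix.SpecialLinearGroup.coe_inv, Matrix.adjugate_fin_two]
    simp [hg]

variable {G : Type*} [Group G]

/-- `y` acts on the coordinates `ψ` of `W₁` by the matrix `M`. -/
def Acts (W₁ : Subgroup G) (ψ : G → (Fin 2 → ZMod p)) (y : G)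
    (M : Matrix.SpecialLinearGroup (Fin 2) (ZMod p)) : Prop :=
  ∀ x ∈ W₁, y * x * y⁻¹ ∈ W₁ ∧ ψ (y * x * y⁻¹) = (M : Matrix (Fin 2) (Fin 2) (ZMod p)) *ᵥ ψ x

theorem Acts.unique {W₁ : Subgroup G} {ψ : G → (Fin 2 → ZMod p)} (hsurj : ∀ d, ∃ x ∈ W₁, ψ x = d)
    {y : G} {M M' : Matrix.SpecialLinearGroup (Fin 2) (ZMod p)} (h : Acts W₁ ψ y M)
    (h' : Acts W₁ ψ y M') : M = M' := by
  apply Subtype.ext
  apply Matrix.toLin'.injective
  refine LinearMap.ext fun d => ?_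
  obtain ⟨x, hx, rfl⟩ := hsurj d
  rw [Matrix.toLin'_apply, Matrix.toLin'_apply, ← (h x hx).2, ← (h' x hx).2]

theorem Acts.mul {W₁ : Subgroup G} {ψ : G → (Fin 2 → ZMod p)} {y y' : G}
    {M M' : Matrix.SpecialLinearGroup (Fin 2) (ZMod p)} (h : Acts W₁ ψ y M)
    (h' : Acts W₁ ψ y' M') : Acts W₁ ψ (y * y') (M * M') := by
  intro x hx
  obtain ⟨h1, h2⟩ := h' x hx
  obtain ⟨h3, h4⟩ := h _ h1
  have e : y * y' * x * (y * y')⁻¹ = y * (y' * x * y'⁻¹) * y⁻¹ := by group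
  rw [e]
  refine ⟨h3, ?_⟩
  rw [h4, h2, Matrix.SpecialLinearGroup.coe_mul, Matrix.mulVec_mulVec]

theorem acts_one {W₁ : Subgroup G} {ψ : G → (Fin 2 → ZMod p)} : Acts W₁ ψ 1 1 := fun x hx => by
  simp [hx]

variable [Finite G]

set_option maxHeartbeats 1600000 in
/-- A plane with a unipotent and a torus of full order gives a surjection onto `F(p)`. -/
theorem exists_surjective_fOver (hp : p ≠ 2) {R B : Subgroup G} (hR : IsPGroup p R) (hBR : B ≤ R)
    {W : Type*} [AddCommGroup W] (hW : ∀ w : W, p • w = 0) (q : G → W)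
    (hq : ∀ x ∈ B, ∀ y ∈ B, q (x * y) = q x + q y) {a h₀ : G} (haR : a ∈ R)
    (haB : a ∈ normalizer (B : Set G)) (hhB : h₀ ∈ normalizer (B : Set G))
    (hhR : h₀ ∈ normalizer (R : Set G))
    (haq : ∀ x ∈ B, q x = 0 → q (a * x * a⁻¹) = 0)
    (hhq : ∀ x ∈ B, q x = 0 → q (h₀ * x * h₀⁻¹) = 0)
    {f₁ f₂ : G} (hf₁ : f₁ ∈ B) (hf₂ : f₂ ∈ B) {m n : ℕ} (hmn : (m : ZMod p) * (n : ZMod p) = 1)
    (hord : orderOf (m : ZMod p) = p - 1)
    (ha1 : q (a * f₁ * a⁻¹) = q f₁) (ha2 : q (a * f₂ * a⁻¹) = q f₂ + q f₁)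
    (hh1 : q (h₀ * f₁ * h₀⁻¹) = m • q f₁) (hh2 : q (h₀ * f₂ * h₀⁻¹) = n • q f₂)
    (hind : ∀ i j : ℤ, i • q f₁ + j • q f₂ = 0 → (p : ℤ) ∣ i ∧ (p : ℤ) ∣ j) :
    ∃ Y : Subgroup G, Y ≤ zpowers h₀ ⊔ R ∧
      ∃ f : Y →* ↥(Cfsg.fOver (ZMod p)), Function.Surjective f := by
  classical
  have hpp : p.Prime := Fact.out
  -- `q` as a homomorphism
  let qh : Additive B →+ W := AddMonoidHom.mk' (fun x => q ((Additive.toMul x : B) : G))
    (fun x y => hq _ (Additive.toMul x).2 _ (Additive.toMul y).2)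
  have hqh : ∀ (x : G) (hx : x ∈ B), q x = qh (Additive.ofMul ⟨x, hx⟩) := fun _ _ => rfl
  have hq1 : q 1 = 0 := (hqh 1 (one_mem B)).trans (map_zero qh)
  have hqz : ∀ x ∈ B, ∀ i : ℤ, q (x ^ i) = i • q x := fun x hx i => by
    rw [hqh x hx, ← map_zsmul]
    exact hqh (x ^ i) (zpow_mem hx i)
  have hqinv : ∀ x ∈ B, q x⁻¹ = - q x := fun x hx => by
    have := hqz x hx (-1)
    simpa using this
  -- the plane
  let W₁ : Subgroup G :=
    { carrier := {x | x ∈ B ∧ ∃ i j : ℤ, q x = i • q f₁ + j • q f₂}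
      one_mem' := ⟨one_mem _, 0, 0, by rw [hq1, zero_smul, zero_smul, add_zero]⟩
      mul_mem' := by
        rintro x y ⟨hx, i, j, e⟩ ⟨hy, i', j', e'⟩
        exact ⟨mul_mem hx hy, i + i', j + j', by rw [hq x hx y hy, e, e', add_smul, add_smul]; abel⟩
      inv_mem' := by
        rintro x ⟨hx, i, j, e⟩
        exact ⟨inv_mem hx, -i, -j, by rw [hqinv x hx, e, neg_smul, neg_smul, neg_add]⟩ }
  let ψ : G → (Fin 2 → ZMod p) := fun x =>
    if hx : ∃ i j : ℤ, q x = i • q f₁ + j • q f₂ then ![(hx.choose : ZMod p), (hx.choose_spec.choose : ZMod p)]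
    else 0
  have hψ : ∀ x, ∀ i j : ℤ, q x = i • q f₁ + j • q f₂ → ψ x = ![(i : ZMod p), (j : ZMod p)] := by
    intro x i j e
    have hx : ∃ i j : ℤ, q x = i • q f₁ + j • q f₂ := ⟨i, j, e⟩
    simp only [ψ, dif_pos hx]
    have h1 := hx.choose_spec.choose_spec
    obtain ⟨d1, d2⟩ := hind (hx.choose - i) (hx.choose_spec.choose - j) (by
      rw [sub_smul, sub_smul, ← sub_eq_zero.2 (h1.symm.trans e)]; abel)
    rw [← ZMod.intCast_zmod_eq_zero_iff_dvd, Int.cast_sub, sub_eq_zero] at d1 d2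
    rw [d1, d2]
  have hadd : ∀ x ∈ W₁, ∀ y ∈ W₁, ψ (x * y) = ψ x + ψ y := by
    rintro x ⟨hx, i, j, e⟩ y ⟨hy, i', j', e'⟩
    rw [hψ x i j e, hψ y i' j' e', hψ (x * y) (i + i') (j + j')
      (by rw [hq x hx y hy, e, e', add_smul, add_smul]; abel)]
    ext r
    fin_cases r <;> simp
  have hψ1 : ψ 1 = 0 := by
    have := hadd 1 (one_mem _) 1 (one_mem _)
    rwa [mul_one, left_eq_add] at this
  have hψz : ∀ x ∈ W₁, ∀ k : ℕ, ψ (x ^ k) = k • ψ x := fun x hx k => by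
    induction k with
    | zero => rw [pow_zero, hψ1, zero_nsmul]
    | succ k ih => rw [pow_succ, hadd _ (pow_mem hx k) _ hx, ih, succ_nsmul]
  have hsurj : ∀ d, ∃ x ∈ W₁, ψ x = d := by
    intro d
    have e : q (f₁ ^ ((d 0).val : ℤ) * f₂ ^ ((d 1).val : ℤ)) =
        ((d 0).val : ℤ) • q f₁ + ((d 1).val : ℤ) • q f₂ := by
      rw [hq _ (zpow_mem hf₁ _) _ (zpow_mem hf₂ _), hqz _ hf₁, hqz _ hf₂]
    refine ⟨_, ⟨mul_mem (zpow_mem hf₁ _) (zpow_mem hf₂ _), _, _, e⟩, ?_⟩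
    rw [hψ _ _ _ e]
    ext r
    fin_cases r <;> simp
  -- criterion for acting
  have hacts : ∀ (y : G) (M : Matrix.SpecialLinearGroup (Fin 2) (ZMod p)) (α β γ δ : ℤ),
      y ∈ normalizer (B : Set G) → (∀ x ∈ B, q x = 0 → q (y * x * y⁻¹) = 0) →
      q (y * f₁ * y⁻¹) = α • q f₁ + γ • q f₂ → q (y * f₂ * y⁻¹) = β • q f₁ + δ • q f₂ →
      M.1 0 0 = α → M.1 0 1 = β → M.1 1 0 = γ → M.1 1 1 = δ → Acts W₁ ψ y M := by
    intro y M α β γ δ hy hk e1 e2 hα hβ hγ hδ x hx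
    obtain ⟨hxB, i, j, e⟩ := hx
    have hc : ∀ z ∈ B, y * z * y⁻¹ ∈ B := fun z hz => (mem_normalizer_iff.1 hy z).1 hz
    have hu : f₁ ^ i * f₂ ^ j ∈ B := mul_mem (zpow_mem hf₁ _) (zpow_mem hf₂ _)
    have h0 : q (x * (f₁ ^ i * f₂ ^ j)⁻¹) = 0 := by
      rw [hq _ hxB _ (inv_mem hu), hqinv _ hu, hq _ (zpow_mem hf₁ _) _ (zpow_mem hf₂ _),
        hqz _ hf₁, hqz _ hf₂, e]
      abel
    have h1 : q (y * x * y⁻¹) = q (y * (f₁ ^ i * f₂ ^ j) * y⁻¹) := by
      have h2 := hk _ (mul_mem hxB (inv_mem hu)) h0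
      rw [show y * (x * (f₁ ^ i * f₂ ^ j)⁻¹) * y⁻¹ =
        y * x * y⁻¹ * (y * (f₁ ^ i * f₂ ^ j) * y⁻¹)⁻¹ by group,
        hq _ (hc _ hxB) _ (inv_mem (hc _ hu)), hqinv _ (hc _ hu)] at h2
      exact sub_eq_zero.1 (by rwa [sub_eq_add_neg])
    have h3 : q (y * (f₁ ^ i * f₂ ^ j) * y⁻¹) =
        (i * α + j * β) • q f₁ + (i * γ + j * δ) • q f₂ := by
      rw [← conj_mul, ← conj_zpow, ← conj_zpow, hq _ (zpow_mem (hc _ hf₁) _) _ (zpow_mem (hc _ hf₂) _),
        hqz _ (hc _ hf₁), hqz _ (hc _ hf₂), e1, e2, smul_add, smul_add, smul_smul, smul_smul,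
        smul_smul, smul_smul, add_smul, add_smul]
      abel
    refine ⟨⟨hc _ hxB, _, _, h1.trans h3⟩, ?_⟩
    rw [hψ _ _ _ (h1.trans h3), hψ x i j e]
    ext r
    fin_cases r <;>
      simp [Matrix.mulVec, dotProduct, Fin.sum_univ_two, hα, hβ, hγ, hδ] <;> ring
  let t₂ := tor2 (p := p) m n hmn
  have hacta : Acts W₁ ψ a (uni2 1) := by
    refine hacts a _ 1 1 0 1 haB haq ?_ ?_ ?_ ?_ ?_ ?_ <;>
      first
        | (simp [uni2]; done)
        | (rw [ha1]; simp; done)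
        | (rw [ha2, add_comm]; simp)
  have hacth : Acts W₁ ψ h₀ t₂ := by
    refine hacts h₀ _ m 0 0 n hhB hhq ?_ ?_ ?_ ?_ ?_ ?_ <;>
      first
        | (simp [t₂, tor2]; done)
        | (rw [hh1]; simp; done)
        | (rw [hh2]; simp)
  -- the group of acting elements
  let A₀ : Submonoid G :=
    { carrier := {y | ∃ M, Acts W₁ ψ y M}
      one_mem' := ⟨1, acts_one⟩
      mul_mem' := fun {y y'} ⟨M, hM⟩ ⟨M', hM'⟩ => ⟨M * M', hM.mul hM'⟩ }
  let NW : Subgroup G :=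
    { A₀ with
      inv_mem' := fun {y} hy => by
        obtain ⟨M, hM⟩ := hy
        show y⁻¹ ∈ A₀
        have hy' : y ∈ A₀ := ⟨M, hM⟩
        obtain ⟨k, hk⟩ : ∃ k, orderOf y = k + 1 := ⟨orderOf y - 1, by have := orderOf_pos y; omega⟩
        have : y⁻¹ = y ^ k := by
          rw [inv_eq_iff_mul_eq_one, ← pow_succ', ← hk, pow_orderOf_eq_one]
        rw [this]
        exact pow_mem hy' k }
  have hNW : ∀ {y : G}, y ∈ NW ↔ ∃ M, Acts W₁ ψ y M := Iff.rfl
  choose φ₀ hφ₀ using fun y : NW => hNW.1 y.2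
  let φ : NW →* Matrix.SpecialLinearGroup (Fin 2) (ZMod p) :=
    MonoidHom.mk' φ₀ fun y y' => Acts.unique hsurj (hφ₀ (y * y')) ((hφ₀ y).mul (hφ₀ y'))
  have hφ : ∀ (y : G) (hy : y ∈ NW) M, Acts W₁ ψ y M → φ ⟨y, hy⟩ = M := fun y hy M hM =>
    Acts.unique hsurj (hφ₀ ⟨y, hy⟩) hM
  have hφacts : ∀ y : NW, Acts W₁ ψ (y : G) (φ y) := hφ₀
  -- the `p'`-part of the torus
  obtain ⟨N, e, he, hord0⟩ := Nat.exists_eq_pow_mul_and_not_dvd (orderOf_pos h₀).ne' p hpp.ne_one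
  set h := h₀ ^ (p ^ N) with hhdef
  have hhord : orderOf h ∣ e := orderOf_dvd_of_pow_eq_one (by
    rw [hhdef, ← pow_mul, ← hord0, pow_orderOf_eq_one])
  have hecop : e.Coprime p := Nat.coprime_comm.1 (hpp.coprime_iff_not_dvd.2 he)
  have hh₀NW : h₀ ∈ NW := ⟨_, hacth⟩
  have hhNW : h ∈ NW := pow_mem hh₀NW _
  have hmp : ∀ c : ZMod p, c ^ (p ^ N) = c := fun c => by
    have := ZMod.pow_card_pow (p := p) (n := N) c
    exact this
  have hφh : φ ⟨h, hhNW⟩ = t₂ := by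
    have : (⟨h, hhNW⟩ : NW) = ⟨h₀, hh₀NW⟩ ^ (p ^ N) := rfl
    rw [this, map_pow, hφ h₀ hh₀NW _ hacth]
    show tor2 _ _ _ ^ _ = _
    rw [tor2_pow]
    apply Subtype.ext
    simp [t₂, tor2, hmp]
  have hhR' : h ∈ normalizer (R : Set G) := pow_mem hhR _
  set J : ℕ := m * m with hJ
  have hm0 : (m : ZMod p) ≠ 0 := left_ne_zero_of_mul_eq_one hmn
  -- the unipotent part
  let Pl : Subgroup G :=
    { carrier := {y | y ∈ R ∧ ∃ c, Acts W₁ ψ y (uni2 c)}
      one_mem' := ⟨one_mem _, 0, by rw [uni2_zero]; exact acts_one⟩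
      mul_mem' := fun {y y'} ⟨hy, c, hc⟩ ⟨hy', c', hc'⟩ =>
        ⟨mul_mem hy hy', c + c', by rw [← uni2_mul]; exact hc.mul hc'⟩
      inv_mem' := fun {y} ⟨hy, c, hc⟩ => by
        refine ⟨inv_mem hy, -c, ?_⟩
        have hyN : y ∈ NW := ⟨_, hc⟩
        have h1 : φ (⟨y, hyN⟩⁻¹) = uni2 (-c) := by
          rw [map_inv, hφ y hyN _ hc, inv_eq_iff_mul_eq_one, uni2_mul, add_neg_cancel, uni2_zero]
        rw [← h1]
        exact hφacts ((⟨y, hyN⟩ : NW)⁻¹) }
  have hPlNW : Pl ≤ NW := fun y hy => ⟨_, hy.2.choose_spec⟩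
  have hPlR : Pl ≤ R := fun _ hy => hy.1
  have haPl : a ∈ Pl := ⟨haR, 1, hacta⟩
  have hconjPl : ∀ y ∈ Pl, ∀ c, Acts W₁ ψ y (uni2 c) →
      h * y * h⁻¹ ∈ Pl ∧ Acts W₁ ψ (h * y * h⁻¹) (uni2 ((J : ZMod p) * c)) := by
    intro y hy c hc
    have hmem : h * y * h⁻¹ ∈ NW := mul_mem (mul_mem hhNW (hPlNW hy)) (inv_mem hhNW)
    have h1 : φ ⟨_, hmem⟩ = uni2 ((J : ZMod p) * c) := by
      have : (⟨_, hmem⟩ : NW) = ⟨h, hhNW⟩ * ⟨y, hPlNW hy⟩ * ⟨h, hhNW⟩⁻¹ := rfl
      rw [this, map_mul, map_mul, map_inv, hφh, hφ y _ _ hc, tor2_uni2, mul_inv_cancel_right, hJ,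
        Nat.cast_mul]
    have h2 := hφacts ⟨_, hmem⟩
    rw [h1] at h2
    exact ⟨⟨(mem_normalizer_iff.1 hhR' y).1 hy.1, _, h2⟩, h2⟩
  have hhPl : h ∈ normalizer (Pl : Set G) := by
    refine H61.mem_normalizer_of_cj (H61.cj_eq_of_le ?_)
    rintro _ ⟨y, hy, rfl⟩
    obtain ⟨c, hc⟩ := hy.2
    exact (hconjPl y hy c hc).1
  -- a smallest invariant subgroup acting nontrivially
  obtain ⟨D, ⟨hDPl, hhD, y₀, hy₀, hy₀'⟩, hmin⟩ := Set.exists_min_image
    {D : Subgroup G | D ≤ Pl ∧ h ∈ normalizer (D : Set G) ∧ ∃ y ∈ D, ¬ Acts W₁ ψ y 1}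
    (fun D : Subgroup G => Nat.card D) (Set.toFinite _)
    ⟨Pl, le_rfl, hhPl, a, haPl, fun hh => one_ne_zero (α := ZMod p)
      (uni2_inj ((hacta.unique hsurj hh).trans uni2_zero.symm))⟩
  have hDp : IsPGroup p D := hR.to_le (hDPl.trans hPlR)
  choose cD hcD using fun y : D => (hDPl y.2).2
  let θ : D →* Multiplicative (ZMod p) := MonoidHom.mk' (fun y => Multiplicative.ofAdd (cD y))
    fun y y' => congrArg Multiplicative.ofAdd (uni2_inj
      ((Acts.unique hsurj (hcD (y * y')) ((hcD y).mul (hcD y'))).trans (uni2_mul _ _)))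
  have hθ : ∀ (y : D) c, Acts W₁ ψ (y : G) (uni2 c) → θ y = Multiplicative.ofAdd c := fun y c hc =>
    congrArg Multiplicative.ofAdd (uni2_inj (Acts.unique hsurj (hcD y) hc))
  let σ : D →* D := MonoidHom.mk'
    (fun y => ⟨h * y * h⁻¹, (mem_normalizer_iff.1 hhD y).1 y.2⟩)
    (fun y y' => Subtype.ext (by simp [mul_assoc]))
  have hθσ : ∀ y : D, θ (σ y) = θ y ^ J := fun y => by
    rw [hθ (σ y) _ (hconjPl y (hDPl y.2) _ (hcD y)).2, hθ y _ (hcD y), ← ofAdd_nsmul, nsmul_eq_mul]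
  have hΦker : frattini D ≤ θ.ker := by
    refine H24.frattini_le_of (p := p) _ ?_ fun x => ?_
    · exact Abelianization.commutator_subset_ker θ
    · rw [MonoidHom.mem_ker, map_pow]
      apply Multiplicative.toAdd.injective
      simp [toAdd_pow]
  have hΦσ : frattini D ≤ (frattini D).comap σ := by
    have hσs : Function.Bijective σ := Finite.injective_iff_bijective.1 fun x y hxy =>
      Subtype.ext (mul_left_cancel (mul_right_cancel (congrArg Subtype.val hxy :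
        h * (x : G) * h⁻¹ = h * y * h⁻¹)))
    exact frattini_le_comap_frattini_of_surjective hσs.2
  haveI : (frattini D).Normal := inferInstance
  let Q := D ⧸ frattini D
  letI : CommGroup Q :=
    { (inferInstance : Group Q) with
      mul_comm := fun x y => by
        induction x using QuotientGroup.induction_on with | _ x =>
        induction y using QuotientGroup.induction_on with | _ y =>
        refine QuotientGroup.eq.2 (H24.commutator_le_frattini hDp ?_)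
        rw [show (x * y)⁻¹ * (y * x) = ⁅y⁻¹, x⁻¹⁆ by simp [commutatorElement_def, mul_assoc]]
        exact commutator_mem_commutator (mem_top _) (mem_top _) }
  let π : D →* Q := QuotientGroup.mk' _
  let σ' : Q →* Q := QuotientGroup.map _ _ σ hΦσ
  let θ' : Q →* Multiplicative (ZMod p) := QuotientGroup.lift _ θ hΦker
  have hQp : ∀ x : Q, x ^ p = 1 := fun x => by
    induction x using QuotientGroup.induction_on with | _ x =>
    exact (QuotientGroup.eq_one_iff _).2 (H24.pow_mem_frattini hDp x)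
  have hQmod : ∀ (x : Q) {i j : ℕ}, (i : ZMod p) = (j : ZMod p) → x ^ i = x ^ j := fun x i j hij => by
    rw [ZMod.natCast_eq_natCast_iff'] at hij
    rw [← Nat.mod_add_div i p, ← Nat.mod_add_div j p, pow_add, pow_add, pow_mul, pow_mul, hQp,
      one_pow, one_pow, hij]
  have hσit : ∀ (i : ℕ) (y : D),
      (σ'^[i] (π y)) = π ⟨h ^ i * y * (h ^ i)⁻¹, (mem_normalizer_iff.1 (pow_mem hhD i) y).1 y.2⟩ := by
    intro i
    induction i with
    | zero => intro y; exact congrArg π (Subtype.ext (by simp))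
    | succ i ih =>
      intro y
      rw [Function.iterate_succ_apply', ih]
      show π (σ _) = _
      refine congrArg π (Subtype.ext ?_)
      show h * (h ^ i * y * (h ^ i)⁻¹) * h⁻¹ = _
      simp [pow_succ', mul_assoc]
  have hσe : ∀ x : Q, σ'^[e] x = x := fun x => by
    induction x using QuotientGroup.induction_on with | _ x =>
    refine (hσit e x).trans (congrArg π (Subtype.ext ?_))
    simp [orderOf_dvd_iff_pow_eq_one.1 hhord]
  have hme : (m : ZMod p) ^ e = 1 := by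
    have h1 : φ (⟨h, hhNW⟩ ^ e) = 1 := by
      rw [show (⟨h, hhNW⟩ : NW) ^ e = 1 from Subtype.ext (orderOf_dvd_iff_pow_eq_one.1 hhord), map_one]
    rw [map_pow, hφh] at h1
    have h2 := congrFun (congrFun (congrArg Subtype.val ((tor2_pow (m : ZMod p) n hmn e).symm.trans h1)) 0) 0
    simpa [tor2] using h2
  have hJe : ((J ^ (e + 1) : ℕ) : ZMod p) = (J : ZMod p) := by
    rw [hJ, Nat.cast_pow, Nat.cast_mul, pow_succ, mul_pow, hme, one_mul, one_mul]
  set d₀ : D := ⟨y₀, hy₀⟩ with hd₀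
  have hθd : θ d₀ ≠ 1 := fun hh => hy₀' (by
    have h1 := hcD d₀
    rwa [show cD d₀ = 0 from hh, uni2_zero] at h1)
  set g : ℕ → Q := fun i => (σ'^[i] (π d₀)) ^ (J ^ (e - i)) with hg
  set x' : Q := ∏ i ∈ Finset.range e, g i with hx'
  have hσx' : σ' x' = x' ^ J := by
    rw [hx', map_prod, ← Finset.prod_pow]
    set g' : ℕ → Q := fun i => g i ^ J with hg'
    have h1 : ∀ i ∈ Finset.range e, σ' (g i) = g' (i + 1) := fun i hi => by
      rw [Finset.mem_range] at hi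
      simp only [hg', hg]
      rw [map_pow, ← Function.iterate_succ_apply' (f := σ'), ← pow_mul, ← pow_succ,
        show e - (i + 1) + 1 = e - i by omega]
    rw [Finset.prod_congr rfl h1]
    have h2 : g' e = g' 0 := by
      simp only [hg', hg]
      rw [hσe, Nat.sub_self, pow_zero, pow_one, Function.iterate_zero_apply, Nat.sub_zero, ← pow_mul,
        ← pow_succ]
      exact (hQmod _ hJe).symm
    have h3 := Finset.prod_range_succ' g' e
    rw [Finset.prod_range_succ g' e, h2] at h3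
    exact (mul_right_cancel h3).symm
  have hθit : ∀ (i : ℕ), θ' (σ'^[i] (π d₀)) = θ d₀ ^ (J ^ i) := by
    intro i
    induction i with
    | zero => rw [Function.iterate_zero_apply, pow_zero, pow_one]; rfl
    | succ i ih =>
      rw [Function.iterate_succ_apply', pow_succ, pow_mul, ← ih]
      generalize σ'^[i] (π d₀) = w
      induction w using QuotientGroup.induction_on with | _ w =>
      exact hθσ w
  have hθx' : θ' x' ≠ 1 := by
    rw [hx', map_prod]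
    have h1 : ∀ i ∈ Finset.range e, θ' (g i) = θ d₀ := fun i hi => by
      rw [Finset.mem_range] at hi
      simp only [hg]
      rw [map_pow, hθit, ← pow_mul, ← pow_add, show i + (e - i) = e by omega]
      apply Multiplicative.toAdd.injective
      rw [toAdd_pow, nsmul_eq_mul, hJ, Nat.cast_pow, Nat.cast_mul, mul_pow, hme, one_mul, one_mul]
    rw [Finset.prod_congr rfl h1, Finset.prod_const, Finset.card_range]
    intro hh
    have h2 := congrArg Multiplicative.toAdd hh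
    rw [toAdd_pow, toAdd_one, nsmul_eq_mul, mul_eq_zero, ZMod.natCast_eq_zero_iff] at h2
    rcases h2 with h2 | h2
    · exact he h2
    · exact hθd (Multiplicative.toAdd.injective (h2.trans toAdd_one.symm))
  obtain ⟨d₁, hd₁⟩ := QuotientGroup.mk'_surjective (frattini D) x'
  have hd₁θ : θ d₁ ≠ 1 := fun hh => hθx' (by rw [← hd₁]; exact hh)
  -- it generates
  have hgenD : zpowers d₁ ⊔ frattini D = ⊤ := by
    set P' := zpowers d₁ ⊔ frattini D with hP'
    have hσP : P'.map σ ≤ P' := by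
      rw [map_le_iff_le_comap]
      refine sup_le (zpowers_le.2 ?_) (hΦσ.trans (comap_mono le_sup_right))
      show σ d₁ ∈ P'
      have h1 : π (σ d₁) = π (d₁ ^ J) := by
        rw [map_pow]
        show σ' (π d₁) = (π d₁) ^ J
        rw [show π d₁ = x' from hd₁, hσx']
      have h2 := QuotientGroup.eq.1 h1.symm
      have h3 := mul_mem (mem_sup_left (pow_mem (mem_zpowers d₁) J) : d₁ ^ J ∈ P') (mem_sup_right h2)
      rwa [mul_inv_cancel_left] at h3
    have hmem : P'.map D.subtype ∈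
        {D : Subgroup G | D ≤ Pl ∧ h ∈ normalizer (D : Set G) ∧ ∃ y ∈ D, ¬ Acts W₁ ψ y 1} := by
      refine ⟨(map_subtype_le _).trans hDPl, H61.mem_normalizer_of_cj (H61.cj_eq_of_le ?_),
        d₁, ⟨d₁, mem_sup_left (mem_zpowers d₁), rfl⟩, fun hh => hd₁θ ?_⟩
      · rintro _ ⟨_, ⟨y, hy, rfl⟩, rfl⟩
        exact ⟨σ y, hσP ⟨y, hy, rfl⟩, rfl⟩
      · rw [hθ d₁ 0 (by rwa [uni2_zero])]; rfl
    have h1 := hmin _ hmem
    refine eq_top_of_card_eq _ (le_antisymm (card_le_card_group P') ?_)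
    rwa [card_map_of_injective D.subtype_injective] at h1
  have hcyc : zpowers d₁ = ⊤ := frattini_nongenerating hgenD
  -- the relation
  obtain ⟨k₁, hk₁⟩ : ∃ k : ℕ, h * (d₁ : G) * h⁻¹ = (d₁ : G) ^ k := by
    have : σ d₁ ∈ zpowers d₁ := hcyc ▸ mem_top _
    obtain ⟨k, hk⟩ := mem_powers_iff_mem_zpowers.2 this
    exact ⟨k, congrArg Subtype.val hk.symm⟩
  have hk₁J : (k₁ : ZMod p) = (J : ZMod p) := by
    have h1 : θ (σ d₁) = θ d₁ ^ k₁ := by
      rw [show σ d₁ = d₁ ^ k₁ from Subtype.ext (hk₁.trans (SubmonoidClass.coe_pow _ _).symm), map_pow]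
    rw [hθσ] at h1
    have h2 := congrArg Multiplicative.toAdd h1
    rw [toAdd_pow, toAdd_pow, nsmul_eq_mul, nsmul_eq_mul] at h2
    exact (mul_right_cancel₀ (fun h0 => hd₁θ (Multiplicative.toAdd.injective (h0.trans toAdd_one.symm))) h2).symm
  set d : G := (d₁ : G) with hd
  have hdNW : d ∈ NW := hPlNW (hDPl d₁.2)
  obtain ⟨c₁, hc₁⟩ := (hDPl d₁.2).2
  have hc₁0 : c₁ ≠ 0 := fun h0 => hd₁θ (by rw [hθ d₁ c₁ hc₁, h0]; rfl)
  set M₀ : Subgroup G := zpowers h ⊔ zpowers d with hM₀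
  have hM₀NW : M₀ ≤ NW := sup_le (zpowers_le.2 hhNW) (zpowers_le.2 hdNW)
  have hhn : zpowers h ≤ normalizer (zpowers d : Set G) := zpowers_le.2 (by
    refine H61.mem_normalizer_of_cj (H61.cj_eq_of_le ?_)
    rw [H61.cj, MonoidHom.map_zpowers, zpowers_le]
    exact ⟨(k₁ : ℤ), by simp [hk₁, zpow_natCast]⟩)
  have hkey : ∀ y ∈ M₀, ∀ hy : y ∈ NW, y ∈ W₁ → φ ⟨y, hy⟩ = 1 ∧ ψ y = 0 := by
    intro y hyM hyN hyW
    refine ⟨hφ y hyN 1 fun x hx => ⟨mul_mem (mul_mem hyW hx) (inv_mem hyW), ?_⟩, ?_⟩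
    · rw [hadd _ (mul_mem hyW hx) _ (inv_mem hyW), hadd _ hyW _ hx, Matrix.SpecialLinearGroup.coe_one,
        Matrix.one_mulVec]
      have h1 := hadd y⁻¹ (inv_mem hyW) y hyW
      rw [inv_mul_cancel, hψ1] at h1
      rw [eq_neg_of_add_eq_zero_left h1.symm]
      abel
    have hyR : y ∈ R := hBR hyW.1
    have h1 : y ∈ ((zpowers h ⊔ zpowers d : Subgroup G) : Set G) := hyM
    rw [coe_mul_of_left_le_normalizer_right _ _ hhn] at h1
    obtain ⟨u, hu, w, hw, huw⟩ := h1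
    simp only at huw
    have huR : u ∈ R := by
      rw [show u = y * w⁻¹ by rw [← huw, mul_inv_cancel_right]]
      exact mul_mem hyR (inv_mem (zpowers_le.2 (hPlR (hDPl d₁.2)) hw))
    have hu1 : u = 1 := by
      rw [← orderOf_eq_one_iff]
      obtain ⟨i, hi⟩ := IsPGroup.iff_orderOf.1 hR ⟨u, huR⟩
      rw [Subgroup.orderOf_mk] at hi
      obtain ⟨l, hl⟩ := mem_zpowers_iff.1 hu
      have hde : orderOf u ∣ e := orderOf_dvd_of_pow_eq_one (by
        rw [← hl, ← zpow_natCast, ← _root_.zpow_mul, mul_comm, _root_.zpow_mul, zpow_natCast,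
          orderOf_dvd_iff_pow_eq_one.1 hhord, _root_.one_zpow])
      refine Nat.Coprime.eq_one_of_dvd ?_ hde
      rw [hi]; exact (hecop.pow_right i).symm
    rw [hu1, one_mul] at huw
    subst huw
    obtain ⟨i, hi⟩ := mem_powers_iff_mem_zpowers.2 hw
    simp only at hi
    have hc : h * w * h⁻¹ = w ^ k₁ := by
      rw [← hi, ← conj_pow, hk₁, ← pow_mul, ← pow_mul, mul_comm]
    have h2 := (hφacts ⟨h, hhNW⟩ w hyW).2
    rw [show ((⟨h, hhNW⟩ : NW) : G) = h from rfl, hc, hψz w hyW, hφh] at h2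
    have hmJ : (m : ZMod p) ≠ 1 := fun h0 => by
      rw [h0, orderOf_one] at hord
      have := hpp.two_le
      omega
    funext r
    have h3 := congrFun h2 r
    simp only [Pi.smul_apply, nsmul_eq_mul, hk₁J, hJ, Nat.cast_mul] at h3
    fin_cases r
    · simp [t₂, tor2, Matrix.mulVec, dotProduct, Fin.sum_univ_two] at h3
      rcases h3 with h3 | h3
      · exact absurd (mul_left_cancel₀ hm0 (h3.trans (mul_one _).symm)) hmJ
      · exact h3
    · simp [t₂, tor2, Matrix.mulVec, dotProduct, Fin.sum_univ_two] at h3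
      rcases h3 with h3 | h3
      · exfalso
        have h4 : (m : ZMod p) ^ 3 = 1 := by
          rw [← hmn, ← h3]; ring
        have h5 := orderOf_dvd_of_pow_eq_one h4
        rw [hord] at h5
        have := hpp.two_le
        rcases (Nat.dvd_prime Nat.prime_three).1 h5 with h6 | h6
        · omega
        · have h7 : p = 4 := by omega
          exact absurd hpp (h7 ▸ by norm_num)
      · exact h3
  have hnorm : M₀ ≤ normalizer (W₁ : Set G) := by
    intro y hy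
    refine H61.mem_normalizer_of_cj (H61.cj_eq_of_le ?_)
    rintro _ ⟨x, hx, rfl⟩
    exact (hφacts ⟨y, hM₀NW hy⟩ x hx).1
  have hdec : ∀ y ∈ W₁ ⊔ M₀, ∃ x ∈ W₁, ∃ k ∈ M₀, y = x * k := by
    intro y hy
    have : y ∈ ((W₁ ⊔ M₀ : Subgroup G) : Set G) := hy
    rw [sup_comm, coe_mul_of_left_le_normalizer_right _ _ hnorm,
      set_mul_normalizer_comm _ _ hnorm] at this
    obtain ⟨x, hx, k, hk, rfl⟩ := this
    exact ⟨x, hx, k, hk, rfl⟩
  choose xx hxx kk hkk hyeq using hdec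
  let f₀ : ↥(W₁ ⊔ M₀) → Matrix.SpecialLinearGroup (Fin 3) (ZMod p) := fun y =>
    affine (φ ⟨kk y y.2, hM₀NW (hkk y y.2)⟩) (ψ (xx y y.2))
  have hf₀ : ∀ (y : ↥(W₁ ⊔ M₀)), ∀ x ∈ W₁, ∀ k (hk : k ∈ M₀), (y : G) = x * k →
      f₀ y = affine (φ ⟨k, hM₀NW hk⟩) (ψ x) := by
    intro y x hx k hk hy
    have e' := (hyeq y y.2).symm.trans hy
    set x' := xx y y.2
    set k' := kk y y.2
    have hk' : k' ∈ M₀ := hkk y y.2
    have hrel : k * k'⁻¹ = x⁻¹ * x' := by
      calc k * k'⁻¹ = x⁻¹ * (x * k) * k'⁻¹ := by group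
        _ = x⁻¹ * x' := by rw [← e']; group
    have hmemW : k * k'⁻¹ ∈ W₁ := hrel ▸ mul_mem (inv_mem hx) (hxx _ _)
    obtain ⟨e1, e2⟩ := hkey _ (mul_mem hk (inv_mem hk'))
      (hM₀NW (mul_mem hk (inv_mem hk'))) hmemW
    have e1' : φ ⟨k, hM₀NW hk⟩ = φ ⟨k', hM₀NW hk'⟩ := by
      rw [← mul_inv_eq_one, ← map_inv, ← map_mul]
      exact e1
    have hx' : x' = x * (k * k'⁻¹) := by rw [hrel, mul_inv_cancel_left]
    show affine (φ ⟨k', hM₀NW hk'⟩) (ψ x') = _
    rw [hx', hadd _ hx _ hmemW, e2, add_zero, e1']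
  let f : ↥(W₁ ⊔ M₀) →* Matrix.SpecialLinearGroup (Fin 3) (ZMod p) := MonoidHom.mk' f₀ (by
    intro y y'
    have e₁ := hyeq y y.2
    have e₂ := hyeq y' y'.2
    set x := xx y y.2
    set k := kk y y.2
    set x' := xx y' y'.2
    set k' := kk y' y'.2
    have hk : k ∈ M₀ := hkk y y.2
    have hk' : k' ∈ M₀ := hkk y' y'.2
    obtain ⟨hc1, hc2⟩ := hφacts ⟨k, hM₀NW hk⟩ x' (hxx _ _)
    rw [hf₀ (y * y') (x * (k * x' * k⁻¹)) (mul_mem (hxx _ _) hc1) (k * k') (mul_mem hk hk')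
      (by simp [e₁, e₂, mul_assoc])]
    rw [hadd _ (hxx _ _) _ hc1, hc2,
      show (⟨k * k', hM₀NW (mul_mem hk hk')⟩ : NW) = ⟨k, hM₀NW hk⟩ * ⟨k', hM₀NW hk'⟩ from rfl, map_mul]
    exact (affine_mul _ _ _ _).symm)
  have hhM₀ : h ∈ M₀ := mem_sup_left (mem_zpowers h)
  have hdM₀ : d ∈ M₀ := mem_sup_right (mem_zpowers d)
  have hrange : f.range = Cfsg.fOver (ZMod p) := by
    refine le_antisymm ?_ ((Subgroup.closure_le _).2 ?_)
    · rintro _ ⟨y, rfl⟩
      have hup : M₀.subgroupOf NW ≤ (upperTri (p := p)).comap φ := by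
        rw [hM₀, subgroupOf_sup (zpowers_le.2 hhNW) (zpowers_le.2 hdNW)]
        refine sup_le ?_ ?_
        · intro z hz
          obtain ⟨l, hl⟩ := mem_zpowers_iff.1 hz
          rw [show z = (⟨h, hhNW⟩ : NW) ^ l from Subtype.ext (by simp [hl]), mem_comap, map_zpow, hφh]
          exact zpow_mem (show t₂ ∈ upperTri by
            show t₂.1 1 0 = 0
            simp [t₂, tor2]) l
        · intro z hz
          obtain ⟨l, hl⟩ := mem_zpowers_iff.1 hz
          rw [show z = (⟨d, hdNW⟩ : NW) ^ l from Subtype.ext (by simp [hl]), mem_comap, map_zpow,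
            hφ d hdNW _ hc₁]
          exact zpow_mem (show uni2 c₁ ∈ upperTri by
            show (uni2 c₁).1 1 0 = 0
            simp [uni2]) l
      exact Subgroup.subset_closure
        ⟨hup (x := ⟨_, hM₀NW (hkk y y.2)⟩) (hkk y y.2), rfl, rfl, rfl⟩
    rintro A ⟨a10, a20, a21, a22⟩
    have hdet : A.1 0 0 * A.1 1 1 = 1 := by
      have hd := A.2
      rw [Matrix.det_fin_three, a10, a20, a21, a22] at hd
      linear_combination hd
    obtain ⟨i, hi⟩ : ∃ i : ℕ, (m : ZMod p) ^ i = A.1 0 0 := by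
      have h0 : A.1 0 0 ≠ 0 := left_ne_zero_of_mul_eq_one hdet
      set mu : (ZMod p)ˣ := Units.mk0 _ hm0 with hmu
      have htop : zpowers mu = ⊤ := by
        refine eq_top_of_card_eq _ ?_
        rw [Nat.card_zpowers, Nat.card_eq_fintype_card, ZMod.card_units, ← orderOf_units]
        exact hord
      obtain ⟨i, hi⟩ := mem_powers_iff_mem_zpowers.2 (htop ▸ mem_top (Units.mk0 _ h0) :
        Units.mk0 _ h0 ∈ zpowers mu)
      exact ⟨i, by simpa [hmu] using congrArg Units.val hi⟩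
    obtain ⟨l, hl⟩ : ∃ l : ℕ, (l : ZMod p) * c₁ = A.1 0 1 * (m : ZMod p) ^ i :=
      ⟨((A.1 0 1 * (m : ZMod p) ^ i) / c₁).val, by
        rw [ZMod.natCast_zmod_val, div_mul_cancel₀ _ hc₁0]⟩
    obtain ⟨x, hx, hψx⟩ := hsurj ![A.1 0 2, A.1 1 2]
    have hk : d ^ l * h ^ i ∈ M₀ := mul_mem (pow_mem hdM₀ l) (pow_mem hhM₀ i)
    refine ⟨⟨x * (d ^ l * h ^ i), mul_mem_sup hx hk⟩, ?_⟩
    show f₀ _ = A
    rw [hf₀ _ x hx _ hk rfl,
      show (⟨d ^ l * h ^ i, hM₀NW hk⟩ : NW) = ⟨d, hdNW⟩ ^ l * ⟨h, hhNW⟩ ^ i from rfl,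
      map_mul, map_pow, map_pow, hφ d hdNW _ hc₁, hφh, uni2_pow, hψx]
    show affine (uni2 _ * tor2 _ _ _ ^ i) _ = A
    rw [tor2_pow]
    have hn : (n : ZMod p) ^ i = A.1 1 1 := by
      have h1 : (m : ZMod p) ^ i * (n : ZMod p) ^ i = 1 := by rw [← mul_pow, hmn, one_pow]
      rw [hi] at h1
      exact mul_left_cancel₀ (left_ne_zero_of_mul_eq_one hdet) (h1.trans hdet.symm)
    have h01 : (l : ZMod p) * c₁ * (n : ZMod p) ^ i = A.1 0 1 := by
      rw [hl, mul_assoc, ← mul_pow, hmn, one_pow, mul_one]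
    apply Subtype.ext
    ext r s
    simp only [affine, Matrix.SpecialLinearGroup.coe_mul]
    fin_cases r <;> fin_cases s <;>
      simp [uni2, tor2, Matrix.mul_apply, Fin.sum_univ_two, hi, hn, a10, a20, a21, a22, ← h01]
  refine ⟨W₁ ⊔ M₀, ?_, (MulEquiv.subgroupCongr hrange).toMonoidHom.comp f.rangeRestrict,
    (MulEquiv.subgroupCongr hrange).surjective.comp f.rangeRestrict_surjective⟩
  refine sup_le (fun x hx => mem_sup_right (hBR hx.1)) (sup_le ?_ ?_)
  · exact zpowers_le.2 (mem_sup_left (pow_mem (mem_zpowers h₀) _))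
  · exact zpowers_le.2 (mem_sup_right (hPlR (hDPl d₁.2)))

end Cfsg.Agent.H74.ZJFail
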