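import Cfsg.Agent.H74.ZJFail.Weights
import Cfsg.Agent.H35.ThompsonA

/-!
Failure of strong fusion control by the centre of the Thompson subgroup: the induction.
-/

set_option autoImplicit false

universe u

namespace Cfsg.Agent.H74.ZJFail

open Subgroup
open scoped commutatorElement
open Cfsg.Agent.H61 (cj)

/-- Sections pass along injective maps. -/
theorem involves_of_injective {P A B : Type*} [Group P] [Group A] [Group B] (i : A →* B)
    (hi : Function.Injective i) (h : Cfsg.Involves P A) : Cfsg.Involves P B := by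
  obtain ⟨K, R, hn, ⟨e⟩⟩ := h
  let j : (K.map i : Subgroup B) ≃* K := (K.equivMapOfInjective i hi).symm
  exact H96.involves_of_surjective (e.toMonoidHom.comp ((QuotientGroup.mk' _).comp j.toMonoidHom))
    (e.surjective.comp ((QuotientGroup.mk'_surjective _).comp j.surjective))

variable {p : ℕ} [Fact p.Prime]

/-- An uncontrolled subgroup forces the conclusion. -/
theorem concl_of_bad (hp : p ≠ 2) (n : ℕ) : ∀ (G : Type u) [Group G] [Finite G] (S : Sylow p G),
    Nat.card G = n → (∃ A, Bad S A) → Concl S := by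
  induction n using Nat.strong_induction_on with
  | _ n ih =>
  intro G _ _ S hn hbad
  by_cases hO : OverCtl S
  · have hne : ¬ Zc S ≤ Nz S := fun h => by
      have e : Nz S = Zc S := le_antisymm nz_le h
      haveI : (Zc S).Normal := e ▸ normalCore_normal (Zc S)
      obtain ⟨A, -, x, -, hnot⟩ := hbad
      exact hnot (ctl_of_mem (by rw [Hz, normalizer_eq_top (Zc S)]; exact mem_top x))
    obtain ⟨e, he, heN⟩ := exists_mem_ez hne
    obtain ⟨U, hU⟩ := exists_good hbad
    obtain ⟨B, L, R, a, d, hc⟩ := hU.exists_config hp hO he heN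
    exact hc.concl hp
  simp only [OverCtl, not_forall, exists_prop] at hO
  obtain ⟨Y, T, hY, hT, hJT, A, hA, g, hgY, hgA, hnot⟩ := hO
  let SY : Sylow p Y :=
    (hT.2.1.of_equiv (subgroupOfEquivOfLe hT.1).symm : IsPGroup p (T.subgroupOf Y)).toSylow hT.2.2
  have hmapT : ((SY : Subgroup Y)).map Y.subtype = T := by
    show (T.subgroupOf Y).map Y.subtype = T
    rw [subgroupOf_map_subtype, inf_eq_left.2 hT.1]
  have hZ : (Zc SY).map Y.subtype = Zc S := by
    rw [Zc, H35.map_centerThompsonAOf _ _ Y.subtype_injective.injOn, hmapT, Zc,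
      Cfsg.centerThompsonAOf, Cfsg.centerThompsonAOf, thompson_eq_of_le hT.2.1 hJT]
  have hH : ∀ y : Y, y ∈ Hz SY → (y : G) ∈ Hz S := fun y hy => by
    refine H61.mem_normalizer_of_cj ?_
    have h1 := congrArg (Subgroup.map Y.subtype) (H61.cj_eq_self hy)
    rw [cj, Subgroup.map_map] at h1
    rw [← hZ, cj, Subgroup.map_map]
    exact h1
  have hlt : Nat.card Y < n := hn ▸
    lt_of_le_of_ne (card_le_card_group Y) fun e => hY (eq_top_of_card_eq Y e)
  have hbad' : ∃ A, Bad SY A := by
    refine ⟨A.subgroupOf Y, fun x hx => hA hx, ⟨g, hgY⟩, ?_, fun hc => hnot ?_⟩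
    · rintro _ ⟨x, hx, rfl⟩
      exact hgA ⟨x, hx, rfl⟩
    · obtain ⟨h, hh, c, hc', e⟩ := hc
      refine ⟨h, hH h hh, c, mem_centralizer_iff.2 fun a ha => ?_, congrArg Subtype.val e⟩
      exact congrArg Subtype.val (mem_centralizer_iff.1 hc' ⟨a, hT.1 (hA ha)⟩ ha)
  obtain ⟨hI, z, hz, h, hh, m, hzo, hm, he⟩ := ih _ hlt Y SY rfl hbad'
  refine ⟨?_, z, hZ ▸ mem_map_of_mem Y.subtype hz, h, hH h hh, m, ?_, hm, ?_⟩
  · let i : Hz SY →* Hz S := (Y.subtype.comp (Hz SY).subtype).codRestrict (Hz S) fun y => hH y y.2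
    refine involves_of_injective i (fun a b hab => ?_) hI
    exact Subtype.ext (Subtype.ext (congrArg Subtype.val hab :))
  · rw [← hzo, Subgroup.orderOf_coe]
  · exact congrArg Subtype.val he

end Cfsg.Agent.H74.ZJFail
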