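import Cfsg.Agent.H74.ZJFail.Basic
import Mathlib.Data.Prod.Lex
import Mathlib.Data.Set.Card

/-!
The measure used to pick an uncontrolled subgroup, and the choice of that subgroup.
-/

set_option autoImplicit false

namespace Cfsg.Agent.H74.ZJFail

open Subgroup
open scoped commutatorElement
open Cfsg.Agent.H61 (cj)

variable {G : Type*} [Group G] {p : ℕ} (S : Sylow p G)

/-- `J` of the image modulo `Nz`. -/
noncomputable def Jb (A : Subgroup G) : Subgroup (G ⧸ Nz S) :=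
  Cfsg.thompsonSubgroupAOf (A.map (QuotientGroup.mk' (Nz S)))

/-- Its preimage. -/
def Jh (J : Subgroup (G ⧸ Nz S)) : Subgroup G := J.comap (QuotientGroup.mk' (Nz S))

/-- The preimage of its centre. -/
def Vz (J : Subgroup (G ⧸ Nz S)) : Subgroup G :=
  (J ⊓ centralizer (J : Set (G ⧸ Nz S))).comap (QuotientGroup.mk' (Nz S))

/-- The conjugates of elements of `Ez` in the preimage of the centre generate this subgroup. -/
def Bz (J : Subgroup (G ⧸ Nz S)) : Subgroup G :=
  closure {y | y ∈ Vz S J ∧ ∃ g : G, g⁻¹ * y * g ∈ Ez S}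

/-- The elements acting quadratically on `Bz`. -/
def Sg (J : Subgroup (G ⧸ Nz S)) : Set G :=
  {y | y ∈ normalizer (Jh S J : Set G) ∧ ∀ v ∈ Bz S J, ⁅y, ⁅y, v⁆⁆ ∈ Nz S}

/-- The subgroup generated by `Jh` and the quadratic elements of `A`. -/
noncomputable def Qone (A : Subgroup G) : Subgroup G :=
  Jh S (Jb S A) ⊔ closure (Sg S (Jb S A) ∩ (A : Set G))

/-- The main measure. -/
noncomputable def mu1 [Finite G] (A : Subgroup G) : ℕ ×ₗ ℕ ×ₗ ℕ ×ₗ ℕ :=
  toLex (dAb (A.map (QuotientGroup.mk' (Nz S))), toLex (Nat.card (Jb S A),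
    toLex ((Sg S (Jb S A) ∩ (A : Set G)).ncard, Nat.card A)))

/-- The secondary measure. -/
noncomputable def mu2 [Finite G] (A : Subgroup G) : ℕ ×ₗ ℕ ×ₗ ℕ :=
  toLex (Nat.card ((S : Subgroup G) ⊓ normalizer (Jh S (Jb S A) : Set G) : Subgroup G),
    toLex (Nat.card ((S : Subgroup G) ⊓ normalizer (Jh S (Jb S A) : Set G) ⊓
        normalizer (Qone S A : Set G) : Subgroup G),
      Nat.card ((S : Subgroup G) ⊓ normalizer (A : Set G) : Subgroup G)))

/-- An uncontrolled subgroup. -/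
def Bad (A : Subgroup G) : Prop :=
  A ≤ (S : Subgroup G) ∧ ∃ x : G, cj x A ≤ (S : Subgroup G) ∧ ¬ Ctl S A x

/-- The chosen uncontrolled subgroup. -/
structure Good [Finite G] (U : Subgroup G) : Prop where
  le : U ≤ (S : Subgroup G)
  nz : Nz S ≤ U
  max : ∀ A, Bad S A → mu1 S A ≤ mu1 S U
  sylJ : H23.IsSylowIn p ((S : Subgroup G) ⊓ normalizer (Jh S (Jb S U) : Set G))
    (normalizer (Jh S (Jb S U) : Set G))
  sylQ : H23.IsSylowIn p
    ((S : Subgroup G) ⊓ normalizer (Jh S (Jb S U) : Set G) ⊓ normalizer (Qone S U : Set G))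
    (normalizer (Jh S (Jb S U) : Set G) ⊓ normalizer (Qone S U : Set G))
  sylU : H23.IsSylowIn p ((S : Subgroup G) ⊓ normalizer (U : Set G)) (normalizer (U : Set G))
  grow : U < (S : Subgroup G) ⊓ normalizer (U : Set G)
  fails : ∃ n ∈ normalizer (U : Set G), ¬ Ctl S U n

variable {S}

theorem nz_le_jh (J : Subgroup (G ⧸ Nz S)) : Nz S ≤ Jh S J := fun x hx => by
  show QuotientGroup.mk' (Nz S) x ∈ J
  rw [QuotientGroup.mk'_apply, (QuotientGroup.eq_one_iff x).2 hx]
  exact one_mem J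

theorem jh_le {A : Subgroup G} (hA : Nz S ≤ A) : Jh S (Jb S A) ≤ A := by
  intro x hx
  obtain ⟨a, ha, e⟩ : QuotientGroup.mk' (Nz S) x ∈ A.map (QuotientGroup.mk' (Nz S)) :=
    H35.thompsonSubgroupAOf_le _ hx
  have : a⁻¹ * x ∈ Nz S := QuotientGroup.eq.1 e
  simpa using mul_mem ha (hA this)

theorem vz_le_jh (J : Subgroup (G ⧸ Nz S)) : Vz S J ≤ Jh S J := fun _ hx => hx.1

theorem bz_le_vz (J : Subgroup (G ⧸ Nz S)) : Bz S J ≤ Vz S J :=
  (closure_le _).2 fun _ hy => hy.1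

theorem map_jh (J : Subgroup (G ⧸ Nz S)) : (Jh S J).map (QuotientGroup.mk' (Nz S)) = J :=
  map_comap_eq_self_of_surjective (QuotientGroup.mk'_surjective _) J

theorem qone_le {A : Subgroup G} (hA : Nz S ≤ A) : Qone S A ≤ A :=
  sup_le (jh_le hA) ((closure_le _).2 fun _ h => h.2)

theorem map_cj_mk (k : G) (A : Subgroup G) :
    (cj k A).map (QuotientGroup.mk' (Nz S)) =
      cj (QuotientGroup.mk' (Nz S) k) (A.map (QuotientGroup.mk' (Nz S))) := by
  rw [cj, cj, Subgroup.map_map, Subgroup.map_map]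
  congr 1

theorem cj_centralizer (k : G) (A : Subgroup G) :
    cj k (centralizer (A : Set G)) = centralizer ((cj k A : Subgroup G) : Set G) := by
  ext x
  rw [H61.mem_cj, mem_centralizer_iff, mem_centralizer_iff]
  constructor
  · rintro h _ ⟨a, ha, rfl⟩
    have h1 := h a ha
    calc k * a * k⁻¹ * x = k * (a * (k⁻¹ * x * k)) * k⁻¹ := by group
      _ = k * (k⁻¹ * x * k * a) * k⁻¹ := by rw [h1]
      _ = x * (k * a * k⁻¹) := by group
  · intro h a ha
    have h1 : k * a * k⁻¹ * x = x * (k * a * k⁻¹) := h _ (H61.conj_mem_cj ha)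
    calc a * (k⁻¹ * x * k) = k⁻¹ * (k * a * k⁻¹ * x) * k := by group
      _ = k⁻¹ * (x * (k * a * k⁻¹)) * k := by rw [h1]
      _ = k⁻¹ * x * k * a := by group

theorem jh_cj (k : G) (J : Subgroup (G ⧸ Nz S)) :
    Jh S (cj (QuotientGroup.mk' (Nz S) k) J) = cj k (Jh S J) := by
  ext x
  simp only [Jh, mem_comap, H61.mem_cj, map_mul, map_inv]

theorem vz_cj (k : G) (J : Subgroup (G ⧸ Nz S)) :
    Vz S (cj (QuotientGroup.mk' (Nz S) k) J) = cj k (Vz S J) := by
  rw [Vz, ← cj_centralizer, ← H61.cj_inf]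
  exact jh_cj k _

theorem bz_cj (k : G) (J : Subgroup (G ⧸ Nz S)) :
    Bz S (cj (QuotientGroup.mk' (Nz S) k) J) = cj k (Bz S J) := by
  show Subgroup.closure _ = (Subgroup.closure _).map _
  rw [MonoidHom.map_closure]
  congr 1
  ext y
  constructor
  · rintro ⟨hy, g, hg⟩
    rw [vz_cj, H61.mem_cj] at hy
    refine ⟨k⁻¹ * y * k, ⟨hy, k⁻¹ * g, ?_⟩, ?_⟩
    · simpa [mul_assoc] using hg
    · simp [mul_assoc]
  · rintro ⟨z, ⟨hz, g, hg⟩, rfl⟩
    refine ⟨?_, k * g, ?_⟩
    · rw [vz_cj]; exact H61.conj_mem_cj hz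
    · simpa [mul_assoc] using hg

theorem sg_cj_mem (k : G) (J : Subgroup (G ⧸ Nz S)) (y : G) :
    y ∈ Sg S (cj (QuotientGroup.mk' (Nz S) k) J) ↔ k⁻¹ * y * k ∈ Sg S J := by
  show (y ∈ normalizer (Jh S _ : Set G) ∧ _) ↔ (_ ∧ _)
  rw [jh_cj, ← H61.cj_normalizer, H61.mem_cj, bz_cj]
  refine and_congr_right' ⟨fun h v hv => ?_, fun h v hv => ?_⟩
  · have h1 := (normalCore_normal (Zc S)).conj_mem _ (h _ (H61.conj_mem_cj hv)) k⁻¹
    rw [show k⁻¹ * ⁅y, ⁅y, k * v * k⁻¹⁆⁆ * k⁻¹⁻¹ = ⁅k⁻¹ * y * k, ⁅k⁻¹ * y * k, v⁆⁆ by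
      simp only [commutatorElement_def]; group] at h1
    exact h1
  · have h1 := (normalCore_normal (Zc S)).conj_mem _ (h _ (H61.mem_cj.1 hv)) k
    rw [show k * ⁅k⁻¹ * y * k, ⁅k⁻¹ * y * k, k⁻¹ * v * k⁆⁆ * k⁻¹ = ⁅y, ⁅y, v⁆⁆ by
      simp only [commutatorElement_def]; group] at h1
    exact h1

theorem sg_inter_cj (k : G) (J : Subgroup (G ⧸ Nz S)) (A : Subgroup G) :
    Sg S (cj (QuotientGroup.mk' (Nz S) k) J) ∩ (cj k A : Set G) =
      (fun y => k * y * k⁻¹) '' (Sg S J ∩ (A : Set G)) := by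
  ext y
  rw [Set.mem_inter_iff, sg_cj_mem, SetLike.mem_coe, H61.mem_cj]
  constructor
  · exact fun h => ⟨_, h, by group⟩
  · rintro ⟨z, hz, rfl⟩
    simpa [mul_assoc] using hz

theorem closure_image_cj (k : G) (s : Set G) :
    closure ((fun y => k * y * k⁻¹) '' s) = cj k (closure s) :=
  (MonoidHom.map_closure (MulAut.conj k).toMonoidHom s).symm

section Finite

variable [Finite G]

theorem jb_cj (k : G) (A : Subgroup G) :
    Jb S (cj k A) = cj (QuotientGroup.mk' (Nz S) k) (Jb S A) := by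
  rw [Jb, map_cj_mk, thompson_cj]
  rfl

theorem qone_cj (k : G) (A : Subgroup G) : Qone S (cj k A) = cj k (Qone S A) := by
  rw [Qone, Qone, jb_cj, jh_cj, sg_inter_cj, closure_image_cj, H61.cj_sup]

theorem mu1_cj (k : G) (A : Subgroup G) : mu1 S (cj k A) = mu1 S A := by
  rw [mu1, mu1, jb_cj, map_cj_mk, dAb_cj, H61.card_cj, sg_inter_cj, H61.card_cj,
    Set.ncard_image_of_injective]
  intro a b h
  exact mul_left_cancel (mul_right_cancel h)

theorem normalizer_le_normalizer_jh (A : Subgroup G) :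
    normalizer (A : Set G) ≤ normalizer (Jh S (Jb S A) : Set G) := fun g hg => by
  refine H61.mem_normalizer_of_cj ?_
  rw [← jh_cj, ← jb_cj, H61.cj_eq_self hg]

theorem normalizer_le_normalizer_qone (A : Subgroup G) :
    normalizer (A : Set G) ≤ normalizer (Qone S A : Set G) := fun g hg => by
  refine H61.mem_normalizer_of_cj ?_
  rw [← qone_cj, H61.cj_eq_self hg]

/-- The measure is monotone in a strong sense. -/
theorem jb_eq_of_mu {A B : Subgroup G} (h : A ≤ B)
    (hd : dAb (B.map (QuotientGroup.mk' (Nz S))) ≤ dAb (A.map (QuotientGroup.mk' (Nz S))))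
    (hc : Nat.card (Jb S B) ≤ Nat.card (Jb S A)) : Jb S A = Jb S B :=
  eq_of_le_of_card_ge (thompson_mono (map_mono h) hd) hc

/-- The measure increases strictly with the subgroup. -/
theorem mu1_lt_of_lt {A B : Subgroup G} (h : A < B) : mu1 S A < mu1 S B := by
  rcases (dAb_mono (map_mono (f := QuotientGroup.mk' (Nz S)) h.le)).lt_or_eq with h1 | h1
  · exact Prod.Lex.toLex_lt_toLex.2 (Or.inl h1)
  refine Prod.Lex.toLex_lt_toLex.2 (Or.inr ⟨h1, ?_⟩)
  rcases (card_le_of_le (thompson_mono (map_mono (f := QuotientGroup.mk' (Nz S)) h.le) h1.ge)).lt_or_eq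
    with h2 | h2
  · exact Prod.Lex.toLex_lt_toLex.2 (Or.inl h2)
  refine Prod.Lex.toLex_lt_toLex.2 (Or.inr ⟨h2, ?_⟩)
  have he : Jb S A = Jb S B := jb_eq_of_mu h.le h1.ge h2.ge
  rw [← he]
  rcases (Set.ncard_le_ncard (Set.inter_subset_inter_right (Sg S (Jb S A))
      (SetLike.coe_subset_coe.2 h.le)) (Set.toFinite _)).lt_or_eq with h3 | h3
  · exact Prod.Lex.toLex_lt_toLex.2 (Or.inl h3)
  exact Prod.Lex.toLex_lt_toLex.2 (Or.inr ⟨h3, H61.card_lt_of_lt h⟩)

/-- Subgroups of larger measure are controlled. -/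
theorem ctl_of_mu1 {U : Subgroup G} (hU : ∀ A, Bad S A → mu1 S A ≤ mu1 S U) {D : Subgroup G}
    (hD : D ≤ (S : Subgroup G)) (hlt : mu1 S U < mu1 S D) {g : G}
    (hg : cj g D ≤ (S : Subgroup G)) : Ctl S D g := by
  by_contra hn
  exact absurd (hU D ⟨hD, g, hg, hn⟩) (not_le.2 hlt)

variable [Fact p.Prime]

/-- Choice of the uncontrolled subgroup. -/
theorem exists_good (h : ∃ A, Bad S A) : ∃ U, Good S U := by
  classical
  obtain ⟨U₀, hU₀, hmax₀⟩ := Set.exists_max_image {A | Bad S A} (mu1 S) (Set.toFinite _) h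
  obtain ⟨U, ⟨hU, hUeq⟩, hmax₂⟩ := Set.exists_max_image {A | Bad S A ∧ mu1 S A = mu1 S U₀} (mu2 S)
    (Set.toFinite _) ⟨U₀, hU₀, rfl⟩
  obtain ⟨hUS, x, hx, hfail⟩ := hU
  have hmax : ∀ A, Bad S A → mu1 S A ≤ mu1 S U := fun A hA => hUeq ▸ hmax₀ A hA
  have hne : U ≠ (S : Subgroup G) := by
    rintro rfl
    exact hfail (ctl_of_mem (normalizer_sylow_le (H61.mem_normalizer_of_cj (H61.cj_eq_of_le hx))))
  have hPgt : U < (S : Subgroup G) ⊓ normalizer (U : Set G) := by
    refine lt_of_le_of_ne (le_inf hUS le_normalizer) fun e => ?_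
    have := H61.card_lt_inf_normalizer S.2 (lt_of_le_of_ne hUS hne)
    rw [← e] at this
    exact lt_irrefl _ this
  -- moving `U`
  have trans : ∀ (T₀ : Subgroup G) (k : G), U < T₀ → T₀ ≤ (S : Subgroup G) →
      cj k T₀ ≤ (S : Subgroup G) → Bad S (cj k U) ∧ mu1 S (cj k U) = mu1 S U₀ := by
    intro T₀ k hlt hT₀ hk
    refine ⟨⟨(H61.cj_mono k hlt.le).trans hk, x * k⁻¹, ?_, fun hc => hfail ?_⟩, by rw [mu1_cj, hUeq]⟩
    · rw [H61.cj_cj, inv_mul_cancel_right]; exact hx
    · have h1 : Ctl S U k := (ctl_of_mu1 hmax hT₀ (mu1_lt_of_lt hlt) hk).mono hlt.le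
      simpa using h1.mul hc
  set J := Jb S U with hJ
  set T₁ : Subgroup G := (S : Subgroup G) ⊓ normalizer (Jh S J : Set G) with hT₁
  set N₂ : Subgroup G := normalizer (Jh S J : Set G) ⊓ normalizer (Qone S U : Set G) with hN₂
  set T' : Subgroup G := T₁ ⊓ normalizer (Qone S U : Set G) with hT'
  have hP₁ : (S : Subgroup G) ⊓ normalizer (U : Set G) ≤ T₁ :=
    inf_le_inf_left _ (normalizer_le_normalizer_jh U)
  have hP' : (S : Subgroup G) ⊓ normalizer (U : Set G) ≤ T' :=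
    le_inf hP₁ (inf_le_right.trans (normalizer_le_normalizer_qone U))
  -- first step
  have sylJ : H23.IsSylowIn p T₁ (normalizer (Jh S J : Set G)) := by
    obtain ⟨T'', hT'', hle⟩ := H23.exists_isSylowIn_ge (p := p)
      (inf_le_right : T₁ ≤ normalizer (Jh S J : Set G)) (S.2.to_le inf_le_left)
    obtain ⟨k, -, hk⟩ := H61.exists_cj_le (H61.sylowIn_of_le S le_top) le_top hT''.2.1
    have hU' := trans T₁ k (hPgt.trans_le hP₁) inf_le_left ((H61.cj_mono k hle).trans hk)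
    have h2 := hmax₂ _ hU'
    rw [mu2, mu2, Prod.Lex.toLex_le_toLex, jb_cj, jh_cj] at h2
    have hle2 : cj k T'' ≤ (S : Subgroup G) ⊓ normalizer ((cj k (Jh S J) : Subgroup G) : Set G) := by
      refine le_inf hk ?_
      rw [← H61.cj_normalizer]
      exact H61.cj_mono k hT''.1
    have h3 := card_le_of_le hle2
    rw [H61.card_cj] at h3
    have : Nat.card T'' ≤ Nat.card T₁ := by
      rcases h2 with h2 | ⟨h2, -⟩
      · exact h3.trans h2.le
      · exact h3.trans h2.le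
    have e := eq_of_le_of_card_ge hle this
    rw [← e] at hT''
    exact hT''
  -- second step
  have sylQ : H23.IsSylowIn p T' N₂ := by
    obtain ⟨T'', hT'', hle⟩ := H23.exists_isSylowIn_ge (p := p)
      (le_inf (inf_le_left.trans inf_le_right) inf_le_right : T' ≤ N₂)
      (S.2.to_le (inf_le_left.trans inf_le_left))
    obtain ⟨m, hm, hmle⟩ := H61.exists_cj_le sylJ (hT''.1.trans inf_le_left) hT''.2.1
    have hU' := trans T' m (hPgt.trans_le hP') (inf_le_left.trans inf_le_left)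
      (((H61.cj_mono m hle).trans hmle).trans inf_le_left)
    have h2 := hmax₂ _ hU'
    have eJ : cj m (Jh S J) = Jh S J := H61.cj_eq_self hm
    rw [mu2, mu2, Prod.Lex.toLex_le_toLex, jb_cj, jh_cj, qone_cj, eJ, lt_self_iff_false,
      false_or, Prod.Lex.toLex_le_toLex] at h2
    have hle2 : cj m T'' ≤ T₁ ⊓ normalizer ((cj m (Qone S U) : Subgroup G) : Set G) := by
      refine le_inf hmle ?_
      rw [← H61.cj_normalizer]
      exact H61.cj_mono m (hT''.1.trans inf_le_right)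
    have h3 := card_le_of_le hle2
    rw [H61.card_cj] at h3
    have : Nat.card T'' ≤ Nat.card T' := by
      rcases h2.2 with h2 | ⟨h2, -⟩
      · exact h3.trans h2.le
      · exact h3.trans h2.le
    have e := eq_of_le_of_card_ge hle this
    rw [← e] at hT''
    exact hT''
  -- third step
  have sylU : H23.IsSylowIn p ((S : Subgroup G) ⊓ normalizer (U : Set G)) (normalizer (U : Set G)) := by
    obtain ⟨T'', hT'', hle⟩ := H23.exists_isSylowIn_ge (p := p)
      (inf_le_right : (S : Subgroup G) ⊓ normalizer (U : Set G) ≤ _) (S.2.to_le inf_le_left)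
    have hN : normalizer (U : Set G) ≤ N₂ :=
      le_inf (normalizer_le_normalizer_jh U) (normalizer_le_normalizer_qone U)
    obtain ⟨m, hm, hmle⟩ := H61.exists_cj_le sylQ (hT''.1.trans hN) hT''.2.1
    have hU' := trans _ m hPgt inf_le_left
      (((H61.cj_mono m hle).trans hmle).trans (inf_le_left.trans inf_le_left))
    have h2 := hmax₂ _ hU'
    have eJ : cj m (Jh S J) = Jh S J := H61.cj_eq_self hm.1
    have eQ : cj m (Qone S U) = Qone S U := H61.cj_eq_self hm.2
    rw [mu2, mu2, Prod.Lex.toLex_le_toLex, jb_cj, jh_cj, qone_cj, eJ, eQ, lt_self_iff_false,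
      false_or, Prod.Lex.toLex_le_toLex, lt_self_iff_false, false_or] at h2
    have hle2 : cj m T'' ≤ (S : Subgroup G) ⊓ normalizer ((cj m U : Subgroup G) : Set G) := by
      refine le_inf (hmle.trans (inf_le_left.trans inf_le_left)) ?_
      rw [← H61.cj_normalizer]
      exact H61.cj_mono m hT''.1
    have h3 := card_le_of_le hle2
    rw [H61.card_cj] at h3
    have e := eq_of_le_of_card_ge hle (h3.trans h2.2.2)
    rw [← e] at hT''
    exact hT''
  -- a failing element of the normalizer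
  have hfails : ∃ n ∈ normalizer (U : Set G), ¬ Ctl S U n := by
    set B := cj x U with hB
    have hBlt : B < (S : Subgroup G) := lt_of_le_of_ne hx fun e => hne (eq_of_le_of_card_ge hUS (by
      rw [← e, hB, H61.card_cj]))
    have hPB := H61.card_lt_inf_normalizer S.2 hBlt
    set PB := (S : Subgroup G) ⊓ normalizer (B : Set G) with hPBdef
    have hle : cj x⁻¹ PB ≤ normalizer (U : Set G) := by
      refine (H61.cj_mono _ inf_le_right).trans ?_
      rw [H61.cj_normalizer, hB, H61.cj_cj, inv_mul_cancel, cj_one_eq]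
    obtain ⟨n₀, hn₀, hn₀le⟩ := H61.exists_cj_le sylU hle ((S.2.to_le inf_le_left).map _)
    rw [H61.cj_cj] at hn₀le
    set k := n₀ * x⁻¹ with hk
    have hBPB : B ≤ PB := le_inf hx le_normalizer
    have hlt : mu1 S U < mu1 S PB := by
      rw [← mu1_cj x U]
      exact mu1_lt_of_lt (lt_of_le_of_ne hBPB fun e => by rw [← e] at hPB; exact lt_irrefl _ hPB)
    have h1 : Ctl S B k :=
      (ctl_of_mu1 hmax inf_le_left hlt (hn₀le.trans inf_le_left)).mono hBPB
    have hkB : cj k B = U := by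
      rw [hk, hB, H61.cj_cj, inv_mul_cancel_right, H61.cj_eq_self hn₀]
    refine ⟨n₀, hn₀, fun hc => hfail ?_⟩
    have h2 := h1.inv
    rw [hkB] at h2
    have h3 := hc.mul (k := k⁻¹) (by rwa [H61.cj_eq_self hn₀])
    rwa [hk, mul_inv_rev, inv_inv, inv_mul_cancel_right] at h3
  refine ⟨U, hUS, ?_, hmax, sylJ, sylQ, sylU, hPgt, hfails⟩
  by_contra hnz
  have hNS : Nz S ≤ (S : Subgroup G) := nz_le.trans zc_le
  have hlt : U < U ⊔ Nz S := lt_of_le_of_ne le_sup_left fun e => hnz (e ▸ le_sup_right)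
  refine hfail ((ctl_of_mu1 hmax (sup_le hUS hNS) (mu1_lt_of_lt hlt) ?_).mono hlt.le)
  rw [H61.cj_sup, H61.cj_normal x (Nz S)]
  exact sup_le hx hNS

end Finite

end Cfsg.Agent.H74.ZJFail
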