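import Cfsg.Agent.H74.ZJFail.Measure
import Cfsg.Agent.H35.Family

/-!
A quadratic element outside the chosen uncontrolled subgroup.
-/

set_option autoImplicit false

namespace Cfsg.Agent.H74.ZJFail

open Subgroup
open scoped commutatorElement
open Cfsg.Agent.H61 (cj)

variable {G : Type*} [Group G] {p : ℕ} {S : Sylow p G}

/-- The quotient map kills exactly `Nz`. -/
theorem mk_eq_one_iff {x : G} : QuotientGroup.mk' (Nz S) x = 1 ↔ x ∈ Nz S :=
  QuotientGroup.eq_one_iff x

/-- Commutators in `Nz` are commutation modulo `Nz`. -/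
theorem comm_mem_iff {x y : G} :
    ⁅x, y⁆ ∈ Nz S ↔ QuotientGroup.mk' (Nz S) x * QuotientGroup.mk' (Nz S) y =
      QuotientGroup.mk' (Nz S) y * QuotientGroup.mk' (Nz S) x := by
  rw [← mk_eq_one_iff, map_commutatorElement, commutatorElement_eq_one_iff_mul_comm]

variable (S)

/-- The centralizer of `B` modulo `Nz`. -/
def Kc (B : Subgroup G) : Subgroup G :=
  Jh S (centralizer (B.map (QuotientGroup.mk' (Nz S)) : Set (G ⧸ Nz S)))

variable {S}

theorem mem_kc {B : Subgroup G} {x : G} : x ∈ Kc S B ↔ ∀ v ∈ B, ⁅x, v⁆ ∈ Nz S := by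
  show QuotientGroup.mk' (Nz S) x ∈ centralizer _ ↔ _
  rw [mem_centralizer_iff]
  constructor
  · exact fun h v hv => comm_mem_iff.2 (h _ (mem_map_of_mem _ hv)).symm
  · rintro h _ ⟨v, hv, rfl⟩
    exact (comm_mem_iff.1 (h v hv)).symm

theorem kc_cj (k : G) (B : Subgroup G) : Kc S (cj k B) = cj k (Kc S B) := by
  rw [Kc, Kc, map_cj_mk, ← cj_centralizer, jh_cj]

theorem normalizer_le_normalizer_kc (B : Subgroup G) :
    normalizer (B : Set G) ≤ normalizer (Kc S B : Set G) := fun g hg =>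
  H61.mem_normalizer_of_cj (by rw [← kc_cj, H61.cj_eq_self hg])

/-- A controlled map keeps elements of `Z(J(S))` there. -/
theorem Ctl.conj_mem_zc {A : Subgroup G} {g : G} (h : Ctl S A g) {e : G} (he : e ∈ A)
    (hez : e ∈ Zc S) : g * e * g⁻¹ ∈ Zc S := by
  obtain ⟨k, hk, e'⟩ := h.exists_eq
  rw [e' e he]
  exact (mem_normalizer_iff.1 hk e).1 hez

/-- Moving an element of `Z(J(S))` trivially modulo `Nz` keeps it there. -/
theorem conj_mem_zc_of_comm {k y : G} (hy : y ∈ Zc S) (h : ⁅k, y⁆ ∈ Nz S) :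
    k * y * k⁻¹ ∈ Zc S := by
  rw [H24.conj_eq_comm_mul]
  exact mul_mem (nz_le h) hy

section Finite

variable [Finite G] [Fact p.Prime]

/-- Growth of normalizers in a `p`-subgroup. -/
theorem le_of_inf_normalizer_le {U W : Subgroup G} (hU : U ≤ (S : Subgroup G))
    (hW : W ≤ (S : Subgroup G)) (hn : U ≤ normalizer (W : Set G))
    (h : W ⊓ normalizer (U : Set G) ≤ U) : W ≤ U := by
  by_contra hne
  have hlt : U < U ⊔ W := lt_of_le_of_ne le_sup_left fun e => hne (le_sup_right.trans e.ge)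
  obtain ⟨-, y, hy, hyU⟩ := SetLike.lt_iff_le_and_exists.1
    (H23.lt_inf_normalizer (S.2.to_le (sup_le hU hW)) hlt)
  obtain ⟨u, hu, w, hw, rfl⟩ : ∃ u ∈ U, ∃ w ∈ W, u * w = y := by
    have h1 : y ∈ ((U ⊔ W : Subgroup G) : Set G) := hy.1
    rw [coe_mul_of_left_le_normalizer_right _ _ hn] at h1
    exact h1
  refine hyU (mul_mem hu (h ⟨hw, ?_⟩))
  have := mul_mem (inv_mem (le_normalizer hu)) hy.2
  rwa [inv_mul_cancel_left] at this

/-- A subgroup of a `p`-subgroup equal to its own normalizer there is everything. -/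
theorem eq_of_inf_normalizer_le {T W : Subgroup G} (hT : IsPGroup p T) (hW : W ≤ T)
    (h : T ⊓ normalizer (W : Set G) ≤ W) : W = T := by
  by_contra hne
  exact not_lt_of_ge h (H23.lt_inf_normalizer hT (lt_of_le_of_ne hW hne))

variable {U : Subgroup G}

/-- Everything above `U` is controlled. -/
theorem Good.ctl_up (hg : Good S U) {D : Subgroup G} (hD : D ≤ (S : Subgroup G)) (hlt : U < D)
    {g : G} (h : cj g D ≤ (S : Subgroup G)) : Ctl S D g :=
  ctl_of_mu1 hg.max hD (mu1_lt_of_lt hlt) h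

/-- The controlled part of the normalizer. -/
def Good.ctlNorm (_hg : Good S U) : Subgroup G where
  carrier := {x | x ∈ normalizer (U : Set G) ∧ Ctl S U x}
  one_mem' := ⟨one_mem _, ctl_of_mem (one_mem _)⟩
  mul_mem' := fun {a b} ha hb => ⟨mul_mem ha.1 hb.1, hb.2.mul (by rw [H61.cj_eq_self hb.1]; exact ha.2)⟩
  inv_mem' := fun {a} ha => ⟨inv_mem ha.1, by
    have := ha.2.inv
    rwa [H61.cj_eq_self ha.1] at this⟩

/-- Frattini argument: if an invariant `K` meets the Sylow subgroup outside `U`, the normalizer is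
`K` times its controlled part. -/
theorem Good.frattini (hg : Good S U) {K : Subgroup G} (hK : K ≤ normalizer (U : Set G))
    (hn : normalizer (U : Set G) ≤ normalizer (K : Set G))
    (hout : ¬ (S : Subgroup G) ⊓ normalizer (U : Set G) ⊓ K ≤ U) {x : G}
    (hx : x ∈ normalizer (U : Set G)) : ∃ k ∈ K, ∃ m ∈ hg.ctlNorm, x = k * m := by
  set R := (S : Subgroup G) ⊓ normalizer (U : Set G) ⊓ K with hR
  have hRs : H23.IsSylowIn p R K := H60.sylowIn_inf hg.sylU hK hn
  have hRx : H23.IsSylowIn p (cj x R) K := by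
    have := H61.sylowIn_cj hRs x
    rwa [H61.cj_eq_self (hn hx)] at this
  obtain ⟨k, hk, e⟩ := H61.exists_cj_eq hRx hRs
  rw [H61.cj_cj] at e
  have hkx : k * x ∈ normalizer (U : Set G) := mul_mem (hK hk) hx
  refine ⟨k⁻¹, inv_mem hk, k * x, ⟨hkx, ?_⟩, by rw [inv_mul_cancel_left]⟩
  have hlt : U < U ⊔ R := lt_of_le_of_ne le_sup_left fun e => hout (le_sup_right.trans e.ge)
  have hD : U ⊔ R ≤ (S : Subgroup G) := sup_le hg.le (inf_le_left.trans inf_le_left)
  refine (hg.ctl_up hD hlt ?_).mono le_sup_left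
  rw [H61.cj_sup, H61.cj_eq_self hkx, e]
  exact hD

/-- `Ez` lies in `U`. -/
theorem Good.ez_le (hg : Good S U) : Ez S ≤ U := by
  set N := normalizer (U : Set G) with hN
  set K : Subgroup G := Kc S U ⊓ centralizer (Nz S : Set G) ⊓ N with hK
  have hKn : N ≤ normalizer (K : Set G) := fun g hg' => by
    refine H61.mem_normalizer_of_cj ?_
    rw [hK, H61.cj_inf, H61.cj_inf, cj_centralizer, H61.cj_normal g (Nz S), ← kc_cj,
      H61.cj_eq_self hg', H61.cj_eq_self (le_normalizer hg')]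
  have hKM : K ≤ hg.ctlNorm := by
    refine H61.le_of_sylowIn_of_coprime (H60.sylowIn_inf hg.sylU inf_le_right hKn) ?_ ?_
    · exact fun y hy => ⟨hy.1.2, ctl_of_mem (sylow_le hy.1.1)⟩
    · intro x hx hxo
      refine ⟨hx.2, ctl_of_centralizer (mem_centralizer_iff.2 fun u hu => ?_)⟩
      have hc : x * u * x⁻¹ = u := by
        refine H61.coprime_centralizes (V := Nz S) (W := U) (S.2.to_le (nz_le.trans zc_le)) hxo
          (fun v hv => ?_) (fun w hw => ?_) u hu
        · rw [← mem_centralizer_iff.1 hx.1.2 v hv, mul_inv_cancel_right]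
        · rw [H24.conj_eq_comm_mul]
          have := (normalCore_normal (Zc S)).conj_mem _ (mem_kc.1 hx.1.1 w hw) w⁻¹
          simpa [mul_assoc] using this
      calc u * x = x * u * x⁻¹ * x := by rw [hc]
        _ = x * u := by rw [inv_mul_cancel_right]
  have hout : (S : Subgroup G) ⊓ N ⊓ K ≤ U := by
    by_contra hout
    obtain ⟨n, hn, hnot⟩ := hg.fails
    obtain ⟨k, hk, m, hm, rfl⟩ := hg.frattini inf_le_right hKn hout hn
    exact hnot (mul_mem (hKM hk) hm).2
  intro e he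
  have hc : ∀ u ∈ U, ⁅e, u⁆ ∈ Nz S := fun u hu => by
    rw [← commutatorElement_inv]
    exact inv_mem (he.2.2 u (hg.le hu))
  have heN : e ∈ N := by
    refine H61.mem_normalizer_of_cj (H61.cj_eq_of_le ?_)
    rintro _ ⟨u, hu, rfl⟩
    rw [MulEquiv.coe_toMonoidHom, MulAut.conj_apply, H24.conj_eq_comm_mul]
    exact mul_mem (hg.nz (hc u hu)) hu
  refine hout ⟨⟨zc_le he.1, heN⟩, ⟨mem_kc.2 hc, ?_⟩, heN⟩
  exact mem_centralizer_iff.2 fun v hv => zc_comm (nz_le hv) he.1

/-- `Ez` is central in the largest abelian subgroups modulo `Nz`. -/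
theorem Good.ez_le_vz (hg : Good S U) : Ez S ≤ Vz S (Jb S U) := by
  intro e he
  set π := QuotientGroup.mk' (Nz S) with hπ
  have heU : π e ∈ U.map π := mem_map_of_mem π (hg.ez_le he)
  have hc : ∀ y ∈ U.map π, y * π e = π e * y := by
    rintro _ ⟨u, hu, rfl⟩
    exact comm_mem_iff.1 (he.2.2 u (hg.le hu))
  refine ⟨?_, mem_centralizer_iff.2 fun y hy => hc y (H35.thompsonSubgroupAOf_le _ hy)⟩
  obtain ⟨A, hA⟩ := H72.exists_isMaxAb (U.map π)
  exact hA.le_thompson (mem_of_commute hA heU fun a ha => hc a (hA.1 ha))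

theorem Good.mem_bz (hg : Good S U) {e : G} (he : e ∈ Ez S) : e ∈ Bz S (Jb S U) :=
  subset_closure ⟨hg.ez_le_vz he, 1, by simpa using he⟩

/-- An invariant subgroup centralizing an invariant element class modulo `Nz` meets `S` inside `U`. -/
theorem Good.inf_le (hg : Good S U) (hO : OverCtl S) {e : G} (he : e ∈ Ez S) (heN : e ∉ Nz S)
    {K : Subgroup G} (hK : K ≤ normalizer (U : Set G))
    (hn : normalizer (U : Set G) ≤ normalizer (K : Set G))
    (hc : ∀ m ∈ normalizer (U : Set G), ∀ k ∈ K, ⁅k, m * e * m⁻¹⁆ ∈ Nz S) :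
    (S : Subgroup G) ⊓ normalizer (U : Set G) ⊓ K ≤ U := by
  by_contra hout
  obtain ⟨n, hnN, hnot⟩ := hg.fails
  obtain ⟨k, hk, m, hm, rfl⟩ := hg.frattini hK hn hout hnN
  refine hnot (ctl_of_conj_mem hO he heN hg.le ((H61.cj_eq_self hnN).le.trans hg.le) ?_)
  have h1 := conj_mem_zc_of_comm (hm.2.conj_mem_zc (hg.ez_le he) he.1) (hc m hm.1 k hk)
  simpa [mul_assoc] using h1

/-- A quadratic element outside `U`, when the Thompson subgroup does not grow. -/
theorem Good.exists_quadratic_of_le (hg : Good S U) (hp : p ≠ 2) (hO : OverCtl S) {e : G}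
    (he : e ∈ Ez S) (heN : e ∉ Nz S)
    (hle : Cfsg.thompsonSubgroupAOf
      (((S : Subgroup G) ⊓ normalizer (Jh S (Jb S U) : Set G)).map (QuotientGroup.mk' (Nz S))) ≤
        U.map (QuotientGroup.mk' (Nz S))) :
    ∃ a ∈ Sg S (Jb S U), a ∈ (S : Subgroup G) ∧ a ∉ U := by
  set π := QuotientGroup.mk' (Nz S) with hπ
  set J := Jb S U with hJ
  set T₁ : Subgroup G := (S : Subgroup G) ⊓ normalizer (Jh S J : Set G) with hT₁
  have hUT₁ : U ≤ T₁ := le_inf hg.le (le_normalizer.trans (normalizer_le_normalizer_jh U))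
  obtain ⟨n, hnN, hnot⟩ := hg.fails
  -- the Thompson subgroup stays
  have hJT : Jb S T₁ = J := by
    obtain ⟨A, hA⟩ := H72.exists_isMaxAb (T₁.map π)
    have hd : dAb (T₁.map π) ≤ dAb (U.map π) := by
      rw [← card_eq_dAb hA, ← card_eq_dAb (isMaxAb_of_le (map_mono hUT₁) (hA.le_thompson.trans hle) hA)]
    refine le_antisymm ?_ (thompson_mono (map_mono hUT₁) hd)
    rw [Jb, H72.thompsonSubgroupAOf_eq]
    exact sSup_le fun B hB =>
      (isMaxAb_of_le (map_mono hUT₁) (hB.le_thompson.trans hle) hB).le_thompson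
  have hST : T₁ = (S : Subgroup G) := by
    refine eq_of_inf_normalizer_le S.2 inf_le_left fun y hy => ⟨hy.1, ?_⟩
    refine H61.mem_normalizer_of_cj ?_
    rw [← jh_cj, ← hJT, ← jb_cj, H61.cj_eq_self hy.2]
  -- `Jh` is normal
  have hJn : normalizer (Jh S J : Set G) = ⊤ := by
    by_contra hne
    exact hnot (ctl_of_overgroup hO hne (hST ▸ inf_le_right) hg.le
      (normalizer_le_normalizer_jh U hnN) ((H61.cj_eq_self hnN).le.trans hg.le))
  have hJfix : ∀ g : G, cj (π g) J = J := fun g => by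
    rw [← map_jh (S := S) J, ← map_cj_mk]
    congr 1
    exact H61.cj_eq_self (hJn ▸ mem_top g)
  set B := Bz S J with hB
  have hBfix : ∀ g : G, cj g B = B := fun g => by rw [hB, ← bz_cj, hJfix]
  have hVfix : ∀ g : G, cj g (Vz S J) = Vz S J := fun g => by rw [← vz_cj, hJfix]
  have hBU : B ≤ U := (bz_le_vz J).trans ((vz_le_jh J).trans (jh_le hg.nz))
  have hBS : B ≤ (S : Subgroup G) := hBU.trans hg.le
  have heB : e ∈ B := hg.mem_bz he
  have hK₀n : ∀ g : G, g ∈ normalizer (Kc S B : Set G) := fun g =>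
    normalizer_le_normalizer_kc B (H61.mem_normalizer_of_cj (hBfix g))
  set P₀ : Subgroup G := (S : Subgroup G) ⊓ Kc S B with hP₀
  have hP₀s : H23.IsSylowIn p P₀ (Kc S B) :=
    H60.sylowIn_inf (H61.sylowIn_of_le S le_top) le_top fun g _ => hK₀n g
  have hSP₀ : (S : Subgroup G) ≤ normalizer (P₀ : Set G) :=
    (le_inf le_normalizer fun g _ => hK₀n g).trans inf_normalizer_le_normalizer_inf
  have hP₀U : P₀ ≤ U := by
    refine le_of_inf_normalizer_le hg.le inf_le_left (hg.le.trans hSP₀) ?_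
    have h1 := hg.inf_le hO he heN (K := Kc S B ⊓ normalizer (U : Set G)) inf_le_right
      ((le_inf (fun g _ => hK₀n g) le_normalizer).trans inf_normalizer_le_normalizer_inf)
      (fun m _ k hk => mem_kc.1 hk.1 _ (by
        have := H61.conj_mem_cj (g := m) heB
        rwa [hBfix] at this))
    exact fun y hy => h1 ⟨⟨hy.1.1, hy.2⟩, hy.1.2, hy.2⟩
  -- `P₀` is normal
  have hP₀n : normalizer (P₀ : Set G) = ⊤ := by
    by_contra hne
    obtain ⟨k, hk, hek⟩ := H61.exists_cj_eq (H61.sylowIn_cj hP₀s n)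
      (by rw [H61.cj_eq_self (hK₀n n)]; exact hP₀s)
    rw [H61.cj_cj] at hek
    rw [H61.cj_eq_self (hK₀n n)] at hk
    have hc : Ctl S B (k * n) := ctl_of_overgroup hO hne hSP₀ hBS (H61.mem_normalizer_of_cj hek)
      ((hBfix _).le.trans hBS)
    have hy : k * n * e * (k * n)⁻¹ ∈ B := by
      have := H61.conj_mem_cj (g := k * n) heB
      rwa [hBfix] at this
    have h1 := conj_mem_zc_of_comm (k := k⁻¹) (hc.conj_mem_zc heB he.1)
      (mem_kc.1 (inv_mem hk) _ hy)
    refine hnot (ctl_of_conj_mem hO he heN hg.le ((H61.cj_eq_self hnN).le.trans hg.le) ?_)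
    simpa [mul_assoc] using h1
  -- a largest abelian subgroup of `S` outside `P₀`
  have hout : ∃ A, H72.IsMaxAb (S : Subgroup G) A ∧ ¬ A ≤ P₀ := by
    by_contra h
    push Not at h
    have hJU : Cfsg.thompsonSubgroupAOf (S : Subgroup G) ≤ U := by
      rw [H72.thompsonSubgroupAOf_eq]
      exact sSup_le fun A hA => (h A hA).trans hP₀U
    refine hnot (ctl_of_mem (normalizer_thompson_le (H61.mem_normalizer_of_cj ?_)))
    rw [← thompson_eq_of_le (S.2.to_le hg.le) hJU, ← thompson_cj, H61.cj_eq_self hnN]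
  have hquad : ∃ a ∈ Sg S J, a ∈ (S : Subgroup G) ∧ a ∉ P₀ := by
    obtain ⟨A, ⟨hA, hAP⟩, hmax⟩ := Set.exists_max_image
      {A | H72.IsMaxAb (S : Subgroup G) A ∧ ¬ A ≤ P₀} (fun A => Nat.card (A ⊓ B : Subgroup G))
      (Set.toFinite _) hout
    by_cases hn : B ≤ normalizer (A : Set G)
    · obtain ⟨a, ha, haP⟩ := SetLike.not_le_iff_exists.1 hAP
      refine ⟨a, ⟨hJn ▸ mem_top a, fun v hv => ?_⟩, hA.1 ha, haP⟩
      have h1 : ⁅a, v⁆ ∈ A := by
        rw [show ⁅a, v⁆ = a * (v * a⁻¹ * v⁻¹) by simp [commutatorElement_def, mul_assoc]]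
        exact mul_mem ha ((mem_normalizer_iff.1 (hn hv) _).1 (inv_mem ha))
      rw [commutatorElement_eq_one_iff_mul_comm.2 (hA.2.1 a ha _ h1).eq]
      exact one_mem _
    have hBA : ⁅B, B⁆ ≤ A := by
      refine le_trans ?_ (centerThompson_le_maxAb hA)
      refine commutator_le.2 fun x hx y hy => nz_le (comm_mem_iff.2 ?_)
      exact ((mem_centralizer_iff.1 (bz_le_vz J hx).2) _ (bz_le_vz J hy).1).symm
    obtain ⟨A', hA'S, hA'c, hA'card, -, -, hlt, hlt'⟩ := H35.exists_replacement_in_subgroup hp S.2 hBS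
      (fun g _ => H61.mem_normalizer_of_cj (hBfix g)) hA.1 (H35.isMulCommutative_of_forall hA.2.1)
      hBA hn
    have hA' : H72.IsMaxAb (S : Subgroup G) A' :=
      ⟨hA'S, fun a ha b hb => H35.commute_of_mem_isMulCommutative hA'c ha hb,
        fun C hC hc => (hA.2.2 C hC hc).trans hA'card.ge⟩
    have hA'P : A' ≤ P₀ := by
      by_contra h
      exact absurd (hmax A' ⟨hA', h⟩) (not_le.2 (H61.card_lt_of_lt hlt))
    have hA'' : H72.IsMaxAb P₀ A' := isMaxAb_of_le inf_le_left hA'P hA'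
    refine absurd (inf_eq_right.2 ?_) hlt'.ne
    refine (closure_le _).2 fun y hy => mem_of_commute hA' (hBS (subset_closure hy)) fun a ha => ?_
    obtain ⟨-, g, hge⟩ := hy
    have h1 : g⁻¹ * a * g ∈ Cfsg.thompsonSubgroupAOf (S : Subgroup G) := by
      refine thompson_mono inf_le_left ?_ (?_ : g⁻¹ * a * g ∈ Cfsg.thompsonSubgroupAOf P₀)
      · rw [← card_eq_dAb hA', ← card_eq_dAb hA'']
      · rw [← H61.mem_cj, ← thompson_cj, H61.cj_eq_self (hP₀n ▸ mem_top g)]
        exact hA''.le_thompson ha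
    have h2 := (mem_centralizer_iff.1 (thompson_le_centralizer_zc h1) _ hge.1).symm
    calc a * y = g * (g⁻¹ * a * g * (g⁻¹ * y * g)) * g⁻¹ := by group
      _ = g * (g⁻¹ * y * g * (g⁻¹ * a * g)) * g⁻¹ := by rw [h2]
      _ = y * a := by group
  obtain ⟨a, haSg, haS, haP⟩ := hquad
  by_contra hne
  push Not at hne
  -- all quadratic elements of `S` lie in `U`
  have hSQ : (S : Subgroup G) ≤ normalizer (Qone S U : Set G) := by
    intro y hy
    refine H61.mem_normalizer_of_cj (H61.cj_eq_of_le ?_)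
    rw [Qone, H61.cj_sup, ← closure_image_cj, ← hJ]
    refine sup_le ((H61.cj_eq_self (hJn ▸ mem_top y)).le.trans le_sup_left)
      (le_trans ((closure_le _).2 ?_) le_sup_right)
    rintro _ ⟨z, ⟨hz, hzU⟩, rfl⟩
    have hmem : y * z * y⁻¹ ∈ Sg S J := by
      have := (sg_cj_mem (S := S) y J (y * z * y⁻¹)).2 (by simpa [mul_assoc] using hz)
      rwa [hJfix] at this
    exact subset_closure ⟨hmem, hne _ hmem (mul_mem (mul_mem hy (hg.le hzU)) (inv_mem hy))⟩
  have hQn : normalizer (Qone S U : Set G) = ⊤ := by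
    by_contra h
    exact hnot (ctl_of_overgroup hO h hSQ hg.le (normalizer_le_normalizer_qone U hnN)
      ((H61.cj_eq_self hnN).le.trans hg.le))
  refine haP ⟨haS, mem_kc.2 fun v hv => ?_⟩
  have haQ : a ∈ Qone S U := mem_sup_right (subset_closure ⟨haSg, hne a haSg haS⟩)
  have key : B ≤ Kc S (Qone S U) := by
    refine (closure_le _).2 ?_
    rintro y ⟨-, g, hge⟩
    have h1 : g⁻¹ * y * g ∈ Kc S (Qone S U) := mem_kc.2 fun q hq => by
      rw [← commutatorElement_inv]
      exact inv_mem (hge.2.2 q (hg.le (qone_le hg.nz hq)))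
    rw [← H61.mem_cj, ← kc_cj, H61.cj_eq_self (hQn ▸ mem_top g)] at h1
    exact h1
  rw [← commutatorElement_inv]
  exact inv_mem (mem_kc.1 (key hv) a haQ)

/-- A quadratic element outside `U` normalizing `Qone`. -/
theorem Good.exists_quadratic (hg : Good S U) (hp : p ≠ 2) (hO : OverCtl S) {e : G}
    (he : e ∈ Ez S) (heN : e ∉ Nz S) :
    ∃ a ∈ Sg S (Jb S U), a ∈ (S : Subgroup G) ∧ a ∈ normalizer (Qone S U : Set G) ∧ a ∉ U := by
  set π := QuotientGroup.mk' (Nz S) with hπ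
  set J := Jb S U with hJ
  set T₁ : Subgroup G := (S : Subgroup G) ⊓ normalizer (Jh S J : Set G) with hT₁
  have hUT₁ : U ≤ T₁ := le_inf hg.le (le_normalizer.trans (normalizer_le_normalizer_jh U))
  have hfix : ∀ g ∈ normalizer (Jh S J : Set G), cj (π g) J = J := fun g h => by
    rw [← map_jh (S := S) J, ← map_cj_mk]
    congr 1
    exact H61.cj_eq_self h
  have hstep : ∃ a ∈ Sg S J, a ∈ (S : Subgroup G) ∧ a ∉ U := by
    by_cases hle : Cfsg.thompsonSubgroupAOf (T₁.map π) ≤ U.map π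
    · exact hg.exists_quadratic_of_le hp hO he heN hle
    set V := J ⊓ centralizer (J : Set (G ⧸ Nz S)) with hV
    have hVU : V ≤ U.map π := inf_le_left.trans (H35.thompsonSubgroupAOf_le _)
    have hVn : T₁.map π ≤ normalizer (V : Set (G ⧸ Nz S)) := by
      rintro _ ⟨y, hy, rfl⟩
      refine H61.mem_normalizer_of_cj ?_
      rw [hV, H61.cj_inf, cj_centralizer, hfix y hy.2]
    have hout : ∃ A, H72.IsMaxAb (T₁.map π) A ∧ ¬ A ≤ U.map π := by
      by_contra h
      push Not at h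
      exact hle (by rw [H72.thompsonSubgroupAOf_eq]; exact sSup_le h)
    obtain ⟨A, ⟨hA, hAU⟩, hmax⟩ := Set.exists_max_image
      {A | H72.IsMaxAb (T₁.map π) A ∧ ¬ A ≤ U.map π}
      (fun A => Nat.card (A ⊓ V : Subgroup (G ⧸ Nz S))) (Set.toFinite _) hout
    by_cases hn : V ≤ normalizer (A : Set (G ⧸ Nz S))
    · obtain ⟨y', hy', hyU⟩ := SetLike.not_le_iff_exists.1 hAU
      obtain ⟨y, hy, rfl⟩ := hA.1 hy'
      refine ⟨y, ⟨hy.2, fun v hv => ?_⟩, hy.1, fun h => hyU (mem_map_of_mem π h)⟩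
      have h1 : ⁅π y, π v⁆ ∈ A := by
        rw [show ⁅π y, π v⁆ = π y * (π v * (π y)⁻¹ * (π v)⁻¹) by simp [commutatorElement_def, mul_assoc]]
        exact mul_mem hy' ((mem_normalizer_iff.1 (hn (bz_le_vz J hv)) _).1 (inv_mem hy'))
      refine comm_mem_iff.2 ?_
      rw [← hπ, map_commutatorElement]
      exact (hA.2.1 _ hy' _ h1).eq
    have hVA : ⁅V, V⁆ ≤ A := commutator_le.2 fun x hx y hy => by
      rw [commutatorElement_eq_one_iff_mul_comm.2 (mem_centralizer_iff.1 hx.2 y hy.1).symm]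
      exact one_mem _
    obtain ⟨A', hA'T, hA'c, hA'card, -, -, hlt, hlt'⟩ := H35.exists_replacement_in_subgroup hp
      ((S.2.to_le inf_le_left).map π) (hVU.trans (map_mono hUT₁)) hVn hA.1
      (H35.isMulCommutative_of_forall hA.2.1) hVA hn
    have hA' : H72.IsMaxAb (T₁.map π) A' :=
      ⟨hA'T, fun a ha b hb => H35.commute_of_mem_isMulCommutative hA'c ha hb,
        fun C hC hc => (hA.2.2 C hC hc).trans hA'card.ge⟩
    have hA'U : A' ≤ U.map π := by
      by_contra h
      exact absurd (hmax A' ⟨hA', h⟩) (not_le.2 (H61.card_lt_of_lt hlt))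
    have hA'' := isMaxAb_of_le (map_mono hUT₁) hA'U hA'
    exact absurd (inf_eq_right.2 (le_of_commute hA'' hVU
      (inf_le_right.trans (centralizer_le hA''.le_thompson)))) hlt'.ne
  obtain ⟨a, haSg, haS, haU⟩ := hstep
  by_contra hne
  push Not at hne
  set T' : Subgroup G := T₁ ⊓ normalizer (Qone S U : Set G) with hT'
  have hUT' : U ≤ T' := le_inf hUT₁ (le_normalizer.trans (normalizer_le_normalizer_qone U))
  have hTT : T' = T₁ := by
    refine eq_of_inf_normalizer_le (S.2.to_le inf_le_left) inf_le_left fun y hy => ⟨hy.1, ?_⟩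
    refine H61.mem_normalizer_of_cj (H61.cj_eq_of_le ?_)
    rw [Qone, H61.cj_sup, ← closure_image_cj, ← hJ]
    refine sup_le ((H61.cj_eq_self hy.1.2).le.trans le_sup_left)
      (le_trans ((closure_le _).2 ?_) le_sup_right)
    rintro _ ⟨z, ⟨hz, hzU⟩, rfl⟩
    have hmem : y * z * y⁻¹ ∈ Sg S J := by
      have := (sg_cj_mem (S := S) y J (y * z * y⁻¹)).2 (by simpa [mul_assoc] using hz)
      rwa [hfix y hy.1.2] at this
    have hT'mem := (mem_normalizer_iff.1 hy.2 z).1 (hUT' hzU)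
    exact subset_closure ⟨hmem, hne _ hmem hT'mem.1.1 hT'mem.2⟩
  have haT : a ∈ T' := hTT ▸ (⟨haS, haSg.1⟩ : a ∈ T₁)
  exact haU (hne a haSg haS haT.2)

end Finite

end Cfsg.Agent.H74.ZJFail
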