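import Cfsg.Agent.H74.ZJFail.Core
import Cfsg.Agent.H74.ZJFail.Eigen
import Cfsg.Agent.H74.ZJFail.Fp
import Cfsg.Agent.H96.SectionFree

/-!
The configuration gives the conclusion in `N(Z(J(S)))`.
-/

set_option autoImplicit false

namespace Cfsg.Agent.H74.ZJFail

open Subgroup
open scoped commutatorElement
open Cfsg.Agent.H61 (cj)

variable {G : Type*} [Group G] [Finite G] {p : ℕ} [Fact p.Prime] {S : Sylow p G}

set_option maxHeartbeats 1000000 in
/-- The configuration gives the conclusion. -/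
theorem Config.concl {B L R : Subgroup G} {a d : G} (hc : Config S B L R a d) (hp : p ≠ 2) :
    Concl S := by
  classical
  haveI : Finite L := inferInstance
  let Q := B ⧸ (Nz S).subgroupOf B
  letI : CommGroup Q :=
    { (inferInstance : Group Q) with
      mul_comm := fun x y => by
        induction x using QuotientGroup.induction_on with | _ x =>
        induction y using QuotientGroup.induction_on with | _ y =>
        refine QuotientGroup.eq.2 ?_
        show (((x * y)⁻¹ * (y * x) : B) : G) ∈ Nz S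
        have : (((x * y)⁻¹ * (y * x) : B) : G) = ⁅(y : G)⁻¹, (x : G)⁻¹⁆ := by
          simp [commutatorElement_def, mul_assoc]
        rw [this]
        exact hc.comm _ (inv_mem y.2) _ (inv_mem x.2) }
  let q : B → Additive Q := fun x => Additive.ofMul (QuotientGroup.mk x : Q)
  have hqmul : ∀ x y, q (x * y) = q x + q y := fun _ _ => rfl
  have hq0 : ∀ x, q x = 0 ↔ (x : G) ∈ Nz S := fun x => QuotientGroup.eq_one_iff x
  have hqpow : ∀ (x : B) (k : ℕ), q (x ^ k) = k • q x := fun _ _ => rfl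
  have hqsurj : Function.Surjective q := fun y => by
    obtain ⟨x, hx⟩ := QuotientGroup.mk_surjective (Additive.toMul y)
    exact ⟨x, congrArg Additive.ofMul hx⟩
  let cjh : L → B →* B := fun l => MonoidHom.mk'
    (fun x => ⟨(l : G) * x * (l : G)⁻¹, (mem_normalizer_iff.1 (hc.norm l.2) x).1 x.2⟩)
    (fun x y => Subtype.ext (by simp [mul_assoc]))
  have hcj : ∀ l, (Nz S).subgroupOf B ≤ ((Nz S).subgroupOf B).comap (cjh l) := fun l x hx =>
    (normalCore_normal (Zc S)).conj_mem _ hx _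
  let ρ : L →* AddMonoid.End (Additive Q) :=
    { toFun := fun l => MonoidHom.toAdditive (QuotientGroup.map _ _ (cjh l) (hcj l))
      map_one' := by
        refine AddMonoidHom.ext fun y => ?_
        obtain ⟨x, rfl⟩ := hqsurj y
        show q (cjh 1 x) = q x
        exact congrArg q (Subtype.ext (by simp [cjh]))
      map_mul' := fun g h => by
        refine AddMonoidHom.ext fun y => ?_
        obtain ⟨x, rfl⟩ := hqsurj y
        show q (cjh (g * h) x) = q (cjh g (cjh h x))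
        exact congrArg q (Subtype.ext (by simp [cjh, mul_assoc])) }
  have hρ : ∀ l x, ρ l (q x) = q (cjh l x) := fun _ _ => rfl
  have hW : ∀ y : Additive Q, p • y = 0 := by
    intro y
    obtain ⟨x, rfl⟩ := hqsurj y
    rw [← hqpow, hq0]
    exact hc.pow _ x.2
  have hkey : ∀ (l : L) (x : B), ρ l (q x) - q x = q (cjh l x * x⁻¹) := fun l x => by
    rw [sub_eq_iff_eq_add, hρ, ← hqmul, inv_mul_cancel_right]
  have hfixed : ∀ (l : L) (x : B), ρ l (q x) = q x ↔ ⁅(l : G), (x : G)⁆ ∈ Nz S := fun l x => by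
    rw [← sub_eq_zero, hkey, hq0]
    exact Iff.rfl
  let a₀ : L := ⟨a, hc.syl.1 hc.amem⟩
  let d₀ : L := ⟨d, hc.dmem⟩
  have hquad : ∀ l : L, (∀ v ∈ B, ⁅(l : G), ⁅(l : G), v⁆⁆ ∈ Nz S) →
      ∀ y, ρ l (ρ l y - y) = ρ l y - y := by
    intro l hl y
    obtain ⟨x, rfl⟩ := hqsurj y
    rw [hkey, hfixed]
    exact hl _ x.2
  have hgen : ∀ l : L, ∃ l' ∈ closure ({a₀, d₀} : Set L), ρ l = ρ l' := by
    intro l
    obtain ⟨l', hl', hl⟩ := hc.gen l l.2
    have h1 : (closure ({a₀, d₀} : Set L)).map L.subtype = closure {a, d} := by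
      rw [MonoidHom.map_closure, Set.image_pair]
      rfl
    rw [← h1] at hl'
    obtain ⟨k, hk, rfl⟩ := hl'
    refine ⟨k, hk, ?_⟩
    rw [show l = k * (k⁻¹ * l) by rw [mul_inv_cancel_left], map_mul,
      show ρ (k⁻¹ * l) = 1 from AddMonoidHom.ext fun y => by
        obtain ⟨x, rfl⟩ := hqsurj y
        exact (hfixed _ x).2 (hl _ x.2), mul_one]
  have hRp : IsPGroup p (R.subgroupOf L) := hc.syl.2.1.of_equiv (subgroupOfEquivOfLe hc.syl.1).symm
  let RS : Sylow p L := hRp.toSylow hc.syl.2.2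
  have hRS : ∀ l : L, l ∈ normalizer ((RS : Subgroup L) : Set L) ↔ (l : G) ∈ normalizer (R : Set G) := by
    intro l
    show l ∈ normalizer ((R.subgroupOf L : Subgroup L) : Set L) ↔ _
    rw [← subgroupOf_normalizer_eq hc.syl.1, mem_subgroupOf]
  let TZ : AddSubgroup (Additive Q) :=
    { carrier := {y | ∃ x : B, (x : G) ∈ Zc S ∧ q x = y}
      zero_mem' := ⟨1, one_mem _, rfl⟩
      add_mem' := by
        rintro _ _ ⟨x, hx, rfl⟩ ⟨y, hy, rfl⟩
        exact ⟨x * y, mul_mem hx hy, rfl⟩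
      neg_mem' := by
        rintro _ ⟨x, hx, rfl⟩
        exact ⟨x⁻¹, inv_mem hx, rfl⟩ }
  obtain ⟨e, he, heB, l, hl, hle⟩ := hc.move
  obtain ⟨t, ht, m, n, hmn, hord, ⟨w, hwT, hw0, hwe⟩, S₂, f₁, f₂, hS₂, ha1, ha2, ht1, ht2, hind⟩ :=
    weighted (p := p) hp hW ρ a₀ d₀ hgen (hquad _ hc.quadA) (hquad _ hc.quadD) RS hc.amem TZ
      (v := q ⟨e, heB⟩) ⟨⟨e, heB⟩, he.1, rfl⟩
      (fun r hr => (hfixed r _).2 (he.2.2 _ (hc.le_sylow hr)))
      ⟨⟨l, hl⟩, fun h => hle ((hfixed _ _).1 h)⟩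
      (fun t ht y hy => by
        obtain ⟨x, hx, rfl⟩ := hy
        exact ⟨cjh t x, (hc.ctl t t.2 ((hRS t).1 ht)).conj_mem_zc (hc.le x.2) hx, (hρ t x).symm⟩)
  have htR : (t : G) ∈ normalizer (R : Set G) := (hRS t).1 ht
  obtain ⟨h, hh, hagree⟩ := (hc.ctl t t.2 htR).exists_eq
  have hagreeB : ∀ x ∈ B, h * x * h⁻¹ = t * x * (t : G)⁻¹ := fun x hx => (hagree x (hc.le hx)).symm
  have hhR : h ∈ normalizer (R : Set G) := H61.mem_normalizer_of_cj (H61.cj_eq_of_le (by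
    rintro _ ⟨r, hr, rfl⟩
    rw [MulEquiv.coe_toMonoidHom, MulAut.conj_apply, ← hagree r hr]
    exact (mem_normalizer_iff.1 htR r).1 hr))
  have hhB : h ∈ normalizer (B : Set G) := H61.mem_normalizer_of_cj (H61.cj_eq_of_le (by
    rintro _ ⟨x, hx, rfl⟩
    rw [MulEquiv.coe_toMonoidHom, MulAut.conj_apply, hagreeB x hx]
    exact (mem_normalizer_iff.1 (hc.norm t.2) x).1 hx))
  refine ⟨?_, ?_⟩
  · -- the section
    obtain ⟨x₁, rfl⟩ := hqsurj f₁
    obtain ⟨x₂, rfl⟩ := hqsurj f₂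
    let q₂ : G → Additive Q ⧸ S₂ := fun x =>
      if hx : x ∈ B then QuotientAddGroup.mk (q ⟨x, hx⟩) else 0
    have hq₂ : ∀ x : B, q₂ (x : G) = QuotientAddGroup.mk (q x) := fun x => dif_pos x.2
    have hq₂c : ∀ (l : L) (x : B), q₂ ((l : G) * x * (l : G)⁻¹) = QuotientAddGroup.mk (ρ l (q x)) :=
      fun l x => hq₂ (cjh l x)
    have hker : ∀ (l : L), ∀ x ∈ B, q₂ x = 0 → q₂ ((l : G) * x * (l : G)⁻¹) = 0 := by
      intro l x hx h0
      rw [hq₂ ⟨x, hx⟩, QuotientAddGroup.eq_zero_iff] at h0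
      rw [hq₂c l ⟨x, hx⟩, QuotientAddGroup.eq_zero_iff]
      exact hS₂ l _ h0
    have hval : ∀ (l : L) (x : B) (w : Additive Q), ρ l (q x) - w ∈ S₂ →
        q₂ ((l : G) * x * (l : G)⁻¹) = QuotientAddGroup.mk w := fun l x w hm => by
      rw [hq₂c, ← sub_eq_zero, ← QuotientAddGroup.mk_sub, QuotientAddGroup.eq_zero_iff]
      exact hm
    obtain ⟨Y, hY, f, hf⟩ := exists_surjective_fOver hp (hc.syl.2.1) hc.le
      (W := Additive Q ⧸ S₂) (fun w => by
        induction w using QuotientAddGroup.induction_on with | _ w =>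
        rw [← QuotientAddGroup.mk_nsmul, hW, QuotientAddGroup.mk_zero])
      q₂ (fun x hx y hy => by
        rw [hq₂ ⟨x, hx⟩, hq₂ ⟨y, hy⟩, ← QuotientAddGroup.mk_add, ← hqmul]
        exact hq₂ (⟨x, hx⟩ * ⟨y, hy⟩))
      hc.amem (hc.norm a₀.2) hhB hhR (hker a₀)
      (fun x hx h0 => by rw [hagreeB x hx]; exact hker t x hx h0)
      x₁.2 x₂.2 hmn hord
      (by rw [hq₂]; exact hval a₀ x₁ _ ha1)
      (by
        rw [hq₂, hq₂, ← QuotientAddGroup.mk_add]
        exact hval a₀ x₂ _ (by rw [← sub_sub]; exact ha2))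
      (by rw [hagreeB _ x₁.2, hq₂, ← QuotientAddGroup.mk_nsmul]; exact hval t x₁ _ ht1)
      (by rw [hagreeB _ x₂.2, hq₂, ← QuotientAddGroup.mk_nsmul]; exact hval t x₂ _ ht2)
      (fun i j hij => hind i j (by
        rw [hq₂, hq₂, ← QuotientAddGroup.mk_zsmul, ← QuotientAddGroup.mk_zsmul,
          ← QuotientAddGroup.mk_add, QuotientAddGroup.eq_zero_iff] at hij
        exact hij))
    have hYH : Y ≤ Hz S :=
      hY.trans (sup_le (zpowers_le.2 hh) (hc.le_sylow.trans sylow_le))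
    exact H96.involves_of_surjective (f.comp (subgroupOfEquivOfLe hYH).toMonoidHom)
      (hf.comp (subgroupOfEquivOfLe hYH).surjective)
  -- the eigenvector in `Z(J(S))`
  obtain ⟨x₀, hx₀, rfl⟩ := hwT
  set M : Subgroup G := Zc S ⊓ B with hM
  let φ : M →* M := MonoidHom.mk'
    (fun z => ⟨h * z * h⁻¹ * ((z : G) ^ m)⁻¹, mul_mem
      ⟨(mem_normalizer_iff.1 hh z).1 z.2.1, (mem_normalizer_iff.1 hhB z).1 z.2.2⟩
      (inv_mem (pow_mem z.2 m))⟩)
    (fun z z' => Subtype.ext (by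
      have hcz : Commute (z : G) (z' : G) := zc_comm z.2.1 z'.2.1
      show h * (z * z' : G) * h⁻¹ * (((z : G) * z') ^ m)⁻¹ =
        (h * z * h⁻¹ * ((z : G) ^ m)⁻¹) * (h * z' * h⁻¹ * ((z' : G) ^ m)⁻¹)
      rw [hcz.mul_pow, mul_inv_rev]
      have h1 : Commute ((z : G) ^ m)⁻¹ (h * z' * h⁻¹) :=
        zc_comm (inv_mem (pow_mem z.2.1 m)) ((mem_normalizer_iff.1 hh _).1 z'.2.1)
      have h2 : Commute ((z' : G) ^ m)⁻¹ ((z : G) ^ m)⁻¹ :=
        zc_comm (inv_mem (pow_mem z'.2.1 m)) (inv_mem (pow_mem z.2.1 m))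
      rw [mul_assoc (h * z * h⁻¹), ← mul_assoc _ (h * z' * h⁻¹), h1.eq, mul_assoc (h * z' * h⁻¹),
        ← h2.eq, ← mul_assoc (h * z * h⁻¹), conj_mul]))
  have hxM : (x₀ : G) ∈ M := ⟨hx₀, x₀.2⟩
  have hx₀N : (x₀ : G) ∉ Nz S := fun hh' => hw0 ((hq0 _).2 hh')
  have hφx : (φ ⟨x₀, hxM⟩ : G) ∈ Nz S := by
    have h1 : ρ t (q x₀) - m • q x₀ = 0 := sub_eq_zero.2 hwe
    rw [hρ, ← hqpow, sub_eq_add_neg,
      show -q (x₀ ^ m) = q (x₀ ^ m)⁻¹ from rfl, ← hqmul, hq0] at h1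
    show h * (x₀ : G) * h⁻¹ * ((x₀ : G) ^ m)⁻¹ ∈ Nz S
    rw [hagreeB _ x₀.2]
    exact h1
  have hnot : φ.ker ≠ ⊥ := by
    intro hbot
    have hinj : Function.Injective φ := (MonoidHom.ker_eq_bot_iff φ).1 hbot
    let NM := (Nz S).subgroupOf M
    have hmap : NM.map φ ≤ NM := by
      rintro _ ⟨z, hz, rfl⟩
      exact mul_mem ((normalCore_normal (Zc S)).conj_mem _ hz h) (inv_mem (pow_mem (show (z : G) ∈ Nz S from hz) m))
    have heq := eq_of_le_of_card_ge hmap (card_map_of_injective hinj).ge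
    obtain ⟨z, hz, hze⟩ : φ ⟨x₀, hxM⟩ ∈ NM.map φ := by rw [heq]; exact hφx
    exact hx₀N (by rw [← congrArg Subtype.val (hinj hze)]; exact hz)
  have hkp : IsPGroup p φ.ker :=
    ((S.2.to_le (inf_le_left.trans zc_le : M ≤ (S : Subgroup G))).to_subgroup _)
  haveI : Nontrivial φ.ker := (nontrivial_iff_ne_bot _).2 hnot
  obtain ⟨k, hk0, hk⟩ := hkp.nontrivial_iff_card.1 inferInstance
  obtain ⟨⟨z, hz⟩, hzo⟩ := exists_prime_orderOf_dvd_card' (G := φ.ker) p
    (by rw [hk]; exact dvd_pow_self p (by omega))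
  refine ⟨z, z.2.1, h, hh, m, ?_, hord, ?_⟩
  · rw [← hzo, Subgroup.orderOf_mk, Subgroup.orderOf_coe]
  · exact mul_inv_eq_one.1 (congrArg Subtype.val (show φ z = 1 from hz))

end Cfsg.Agent.H74.ZJFail
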